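import Cfsg.Agent.Lib.Helper88.F78Data

set_option autoImplicit false
set_option maxRecDepth 1000000
set_option maxHeartbeats 0

namespace Cfsg.Agent.Lib.Helper88.F78
open TC MR

theorem chk3 : chk Rs3 = true := by decide +kernel

theorem chk4 : chk Rs4 = true := by decide +kernel

theorem chk5 : chk Rs5 = true := by decide +kernel

end Cfsg.Agent.Lib.Helper88.F78
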