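import Cfsg.Agent.Lib.Helper88.F78Chk0
import Cfsg.Agent.Lib.Helper88.F78Chk1
import Cfsg.Agent.Lib.Helper88.F78Chk2
import Cfsg.Agent.Lib.Helper88.F78Chk3
import Cfsg.Agent.Lib.Helper35.PresFi22
import Cfsg.Agent.Lib.Helper35.Simple3
import Cfsg.Agent.Lib.Helper35.CoxIface
import Cfsg.Agent.S1696

/-!
A faithful representation of degree 78 of the presented Fischer group `Fi22` over `ZMod 13`.
-/

set_option autoImplicit false
set_option maxRecDepth 1000000

namespace Cfsg.Agent.Lib.Helper88.F78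
open TC MR Cfsg.Agent.Lib.Helper35 Cfsg.Spor

/-- the matrix with given rows. -/
abbrev T (A : List ℕ) : Matrix (Fin 78) (Fin 78) (ZMod 13) := toMat Bb 13 78 A

/-- validity. -/
abbrev V (A : List ℕ) : Prop := Val Bb 13 78 A

theorem T_mul {A C : List ℕ} (hA : V A) (hC : V C) : T (mu A C) = T A * T C :=
  toMat_mulM (by norm_num) (by norm_num) (by norm_num) hA hC

theorem V_mul {A : List ℕ} (hA : V A) (C : List ℕ) : V (mu A C) :=
  val_mulM (by norm_num) (by norm_num) hA.1 C

theorem id_dg : ∀ i < 78, ∀ j < 78, dg Bb (idM.getD i 0) j = if i = j then 1 else 0 := by decide +kernel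

theorem T_id : T idM = 1 := by
  ext i j
  show ((dg Bb (idM.getD i.val 0) j.val : ℕ) : ZMod 13) = _
  rw [id_dg _ i.2 _ j.2, Matrix.one_apply]
  by_cases h : i = j
  · rw [if_pos h, if_pos (congrArg Fin.val h)]; simp
  · rw [if_neg h, if_neg (fun e => h (Fin.ext e))]; simp

theorem red_all : ∀ A ∈ idM :: Ms, A.length = 78 ∧ ∀ a ∈ A, red Bb 13 78 a = a := by decide +kernel

theorem V_of_mem {A : List ℕ} (h : A ∈ idM :: Ms) : V A :=
  val_of_red (by norm_num) (by norm_num) (red_all A h).1 (red_all A h).2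

theorem V_id : V idM := V_of_mem List.mem_cons_self

theorem nth_mem : ∀ c < 9, nth [] Ms c ∈ idM :: Ms := by decide +kernel

theorem V_nth {c : ℕ} (h : c < 9) : V (nth [] Ms c) := V_of_mem (nth_mem c h)

theorem sq_code : ∀ c < 9, mu (nth [] Ms c) (nth [] Ms c) = idM := by decide +kernel

/-- the involution with given rows. -/
noncomputable def gl (A : List ℕ) : GL (Fin 78) (ZMod 13) :=
  open Classical in if h : T A * T A = 1 then ⟨T A, T A, h, h⟩ else 1

theorem gl_sq (A : List ℕ) : gl A * gl A = 1 := by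
  rw [gl]
  split_ifs with h
  · apply Units.ext
    exact h
  · rw [one_mul]

/-- the images of the generators. -/
noncomputable def v (c : ℕ) : GL (Fin 78) (ZMod 13) := gl (nth [] Ms c)

theorem v_coe {c : ℕ} (h : c < 9) : ((v c : GL (Fin 78) (ZMod 13)) : Matrix (Fin 78) (Fin 78) (ZMod 13)) =
    T (nth [] Ms c) := by
  have h1 : T (nth [] Ms c) * T (nth [] Ms c) = 1 := by rw [← T_mul (V_nth h) (V_nth h), sq_code c h, T_id]
  rw [v, gl, dif_pos h1]

theorem hvinv (c : ℕ) : v (PresFi22.cc.inv c) = (v c)⁻¹ := by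
  rw [show PresFi22.cc.inv c = c from invOf_range 9 c]
  have h : v c * v c = 1 := by
    unfold v
    exact gl_sq _
  exact eq_inv_of_mul_eq_one_left h

theorem wval_coe (W : List ℕ) (h : ∀ c ∈ W, c < 9) : V (evW Bb 13 78 Ms idM W) ∧
    ((wval v W : GL (Fin 78) (ZMod 13)) : Matrix (Fin 78) (Fin 78) (ZMod 13)) = T (evW Bb 13 78 Ms idM W) := by
  induction W with
  | nil => exact ⟨V_id, by rw [evW_nil, T_id]; rfl⟩
  | cons c r ih =>
    obtain ⟨h1, h2⟩ := ih fun c' hc' => h c' (List.mem_cons_of_mem _ hc')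
    have hc := h c List.mem_cons_self
    refine ⟨V_mul (V_nth hc) _, ?_⟩
    rw [wval_cons, Units.val_mul, v_coe hc, h2, evW_cons]
    exact (T_mul (V_nth hc) h1).symm

theorem pow_coe {X : List ℕ} (hX : V X) (k : ℕ) : V (powM Bb 13 78 X idM k) ∧ T (powM Bb 13 78 X idM k) = T X ^ k := by
  induction k with
  | zero => exact ⟨V_id, by rw [powM_zero, T_id, pow_zero]⟩
  | succ k ih =>
    refine ⟨V_mul hX _, ?_⟩
    rw [powM_succ, pow_succ', ← ih.2]
    exact T_mul hX ih.1

theorem wval_rep (k : ℕ) (w : List ℕ) : wval v (List.replicate k w).flatten = wval v w ^ k := by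
  induction k with
  | zero => simp
  | succ k ih => rw [List.replicate_succ, List.flatten_cons, wval_append, ih, pow_succ']

theorem chk_all : ∀ R ∈ RsAll, chk R = true := by
  intro R hR
  simp only [RsAll, List.mem_cons, List.not_mem_nil, or_false] at hR
  rcases hR with rfl | rfl | rfl | rfl | rfl | rfl | rfl | rfl | rfl
  · exact chk0
  · exact chk1
  · exact chk2
  · exact chk3
  · exact chk4
  · exact chk5
  · exact chk6
  · exact chk7
  · exact chk8

theorem R_eq : PresFi22.R = RsAll.flatten.map fun x => (List.replicate x.1 x.2).flatten := by decide +kernel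

theorem Rs_let : ∀ x ∈ RsAll.flatten, ∀ c ∈ x.2, c < 9 := by decide +kernel

theorem hvR : ∀ b ∈ PresFi22.R, wval v b = 1 := by
  intro b hb
  rw [R_eq, List.mem_map] at hb
  obtain ⟨x, hx, rfl⟩ := hb
  obtain ⟨R, hR, hxR⟩ := List.mem_flatten.1 hx
  have h1 := al_spec (chk_all R hR) x hxR
  rw [decide_eq_true_eq] at h1
  obtain ⟨h2, h3⟩ := wval_coe x.2 (Rs_let x hx)
  rw [wval_rep]
  apply Units.ext
  rw [Units.val_pow_eq_pow_val, h3, ← (pow_coe h2 x.1).2, h1, T_id]
  rfl

/-- the representation of degree 78. -/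
noncomputable def f : Fi22 →* GL (Fin 78) (ZMod 13) :=
  PresentedGroup.toGroup (f := fun x => v (PresFi22.cc.colIdx x))
    (cox_lift_eq_one Fi22.edges Fi22.extra PresFi22.cc PresFi22.extraL PresFi22.R PresFi22.allGens PresFi22.hOK
      PresFi22.hextra v hvinv hvR)

theorem f_of (x : Fi22.Gen) : f (PresentedGroup.of x) = v (PresFi22.colIdx x) := PresentedGroup.toGroup.of _

theorem entry_ne : ((dg Bb ((nth [] Ms 0).getD 0 0) 0 : ℕ) : ZMod 13) ≠ 1 := by decide +kernel

theorem v0_ne : v 0 ≠ 1 := by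
  intro h
  have h1 := v_coe (c := 0) (by norm_num)
  rw [h] at h1
  have h2 := congrFun (congrFun h1 0) 0
  apply entry_ne
  have h3 : T (nth [] Ms 0) 0 0 = ((dg Bb ((nth [] Ms 0).getD 0 0) 0 : ℕ) : ZMod 13) := rfl
  rw [← h3, ← h2]
  simp

theorem f_inj : Function.Injective f := by
  have hs : IsSimpleGroup Fi22 := Cfsg.Agent.S1696.result.1
  rcases hs.eq_bot_or_eq_top_of_normal f.ker inferInstance with h | h
  · exact (MonoidHom.ker_eq_bot_iff _).1 h
  · exfalso
    apply v0_ne
    have h1 : (PresentedGroup.of Fi22.Gen.a : Fi22) ∈ f.ker := by rw [h]; trivial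
    have h2 := f_of Fi22.Gen.a
    rw [MonoidHom.mem_ker.1 h1] at h2
    exact h2.symm

end Cfsg.Agent.Lib.Helper88.F78
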