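import Cfsg.Agent.Lib.Helper88.FiPData
import Cfsg.Agent.Lib.Helper88.O73Data

set_option autoImplicit false
set_option maxRecDepth 1000000
set_option maxHeartbeats 0

namespace Cfsg.Agent.Lib.Helper88.FiP
open TC

theorem relsS_eq : O73.rels = relsS0 ++ relsS1 ++ relsS2 := by decide +kernel

theorem relH_ok : relsOK nets Bs relsH = true := by decide +kernel

theorem relQ_ok : relsOK nets Bs relsQ = true := by decide +kernel

theorem relD_ok : relsOK nets Bs relsD = true := by decide +kernel

theorem fixT : fixOK nets 20 20 0 = true := by decide +kernel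

theorem orbN : Nat.ble 2 (cnt 3510 (orb nets (lets 20 0) [0] 0)) = true := by decide +kernel

end Cfsg.Agent.Lib.Helper88.FiP
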