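import Cfsg.Agent.Lib.Helper88.O73Mat

/-!
The isomorphism between the permutation group of degree 351 and `PΩ(7,3)`.
-/

set_option autoImplicit false
set_option maxRecDepth 100000

namespace Cfsg.Agent.Lib.Helper88.O73
open TC MC Matrix
open scoped commutatorElement

/-- a non-abelian simple group is perfect. -/
theorem perfect_of_simple (G : Type*) [Group G] [IsSimpleGroup G] (h : ∃ a b : G, a * b ≠ b * a) :
    commutator G = ⊤ := by
  rcases IsSimpleGroup.eq_bot_or_eq_top_of_normal (commutator G) inferInstance with h1 | h1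
  · exfalso
    obtain ⟨a, b, hab⟩ := h
    have h2 : ⁅a, b⁆ ∈ commutator G := Subgroup.commutator_mem_commutator (Subgroup.mem_top a) (Subgroup.mem_top b)
    rw [h1, Subgroup.mem_bot, commutatorElement_eq_one_iff_mul_comm] at h2
    exact hab h2
  · exact h1

/-- a non-abelian simple subgroup of `O` of the order of `[O,O]/Z([O,O])` is isomorphic to this quotient. -/
theorem simple_to_quot {O : Type*} [Group O] {S : Type*} [Group S] [IsSimpleGroup S] (j : S →* O)
    (hj : Function.Injective j) (hnc : ∃ a b : S, a * b ≠ b * a)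
    [Finite (commutator O ⧸ Subgroup.center (commutator O))]
    (hcard : Nat.card S = Nat.card (commutator O ⧸ Subgroup.center (commutator O))) :
    Nonempty (S ≃* (commutator O ⧸ Subgroup.center (commutator O))) := by
  have hperf := perfect_of_simple S hnc
  have hmem : ∀ x : S, j x ∈ commutator O := by
    intro x
    have h1 : x ∈ commutator S := by rw [hperf]; trivial
    have h2 : (commutator S).map j ≤ commutator O := by
      rw [commutator_def, Subgroup.map_commutator, commutator_def]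
      exact Subgroup.commutator_mono le_top le_top
    exact h2 (Subgroup.mem_map_of_mem j h1)
  let j' : S →* commutator O := j.codRestrict _ hmem
  have hj' : Function.Injective j' := fun a b e => hj (congrArg Subtype.val e)
  let φ : S →* (commutator O ⧸ Subgroup.center (commutator O)) :=
    (QuotientGroup.mk' (Subgroup.center (commutator O))).comp j'
  have hinj : Function.Injective φ := by
    rcases IsSimpleGroup.eq_bot_or_eq_top_of_normal φ.ker inferInstance with h | h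
    · exact (MonoidHom.ker_eq_bot_iff _).1 h
    · exfalso
      obtain ⟨a, b, hab⟩ := hnc
      have ha : a ∈ φ.ker := by rw [h]; trivial
      have ha' : j' a ∈ Subgroup.center (commutator O) := (QuotientGroup.eq_one_iff _).1 ha
      apply hab
      apply hj'
      rw [map_mul, map_mul]
      exact ((Subgroup.mem_center_iff.1 ha') (j' b)).symm
  exact ⟨MulEquiv.ofBijective φ ((Nat.bijective_iff_injective_and_card φ).2 ⟨hinj, hcard⟩)⟩

/-- the code of the matrix of the quadratic form. -/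
def Sc : ℕ := 0x80008000880008000800001

/-- the matrix of the quadratic form. -/
def Sx : I7 → I7 → ZMod 3
  | .inl _, .inl _ => 1
  | .inr (.inl a), .inr (.inr b) => if a = b then 2 else 0
  | .inr (.inr a), .inr (.inl b) => if a = b then 2 else 0
  | _, _ => 0

theorem M_Sc' : M Sc = Matrix.of Sx := by decide +kernel

theorem M_Sc (i j : I7) : M Sc i j = Sx i j := by rw [M_Sc']; rfl

theorem Q_eq (u : I7 → ZMod 3) : Cfsg.quadFormOdd 3 (ZMod 3) u = u ⬝ᵥ (M Sc *ᵥ u) := by
  have h4 : (4 : ZMod 3) = 1 := by decide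
  simp only [Cfsg.quadFormOdd, dotProduct, Matrix.mulVec, M_Sc, Fintype.sum_sum_type, Sx, Finset.univ_unique,
    Finset.sum_singleton, Fin.sum_univ_three]
  simp
  linear_combination (-(u (Sum.inr (Sum.inl 0)) * u (Sum.inr (Sum.inr 0))) -
    u (Sum.inr (Sum.inl 1)) * u (Sum.inr (Sum.inr 1)) - u (Sum.inr (Sum.inl 2)) * u (Sum.inr (Sum.inr 2))) * h4

theorem tr_LT : ∀ k < 20, ∀ i < 7, ∀ j < 7,
    en 4 (nth 0 LT k) (7 * i + j) = en 4 (nth 0 LC (2 * k)) (7 * j + i) := by decide +kernel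

theorem M_LT {k : ℕ} (h : k < 20) : M (nth 0 LT k) = (M (nth 0 LC (2 * k)))ᵀ := by
  ext i j
  show ((en 4 (nth 0 LT k) (7 * idx i + idx j) : ℕ) : ZMod 3) =
    ((en 4 (nth 0 LC (2 * k)) (7 * idx j + idx i) : ℕ) : ZMod 3)
  rw [tr_LT k h _ (idx_lt i) _ (idx_lt j)]

theorem form_ok : ∀ k < 20, mu (mu (nth 0 LT k) Sc) (nth 0 LC (2 * k)) = Sc := by decide +kernel

theorem Ym_mem {k : ℕ} (h : k < 20) :
    Ym.getD k 1 ∈ Cfsg.isometryGroup (ZMod 3) (Cfsg.quadFormOdd 3 (ZMod 3)) := by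
  intro u _
  show Cfsg.quadFormOdd 3 (ZMod 3) (((Ym.getD k 1 : GL I7 (ZMod 3)) : Matrix I7 I7 (ZMod 3)) *ᵥ u) =
    Cfsg.quadFormOdd 3 (ZMod 3) u
  rw [Ym_getD h, gl_coe (LC_inv k h).1 (LC_inv k h).2, Q_eq, Q_eq]
  have h1 : (M (nth 0 LC (2 * k)))ᵀ * M Sc * M (nth 0 LC (2 * k)) = M Sc := by
    rw [← M_LT h, ← M_mul, ← M_mul, form_ok k h]
  conv_rhs => rw [← h1]
  rw [← Matrix.mulVec_mulVec, ← Matrix.mulVec_mulVec, Matrix.dotProduct_mulVec u, Matrix.vecMul_transpose]

theorem Kd_le_iso : Kd Ym 20 0 ≤ Cfsg.isometryGroup (ZMod 3) (Cfsg.quadFormOdd 3 (ZMod 3)) := by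
  rw [Kd, Subgroup.closure_le]
  rintro g ⟨k, _, h2, rfl⟩
  exact Ym_mem h2

theorem noncomm_code : M (mu (nth 0 LC 0) (nth 0 LC 2)) ≠ M (mu (nth 0 LC 2) (nth 0 LC 0)) := by decide +kernel

theorem noncomm : Ym.getD 0 1 * Ym.getD 1 1 ≠ Ym.getD 1 1 * Ym.getD 0 1 := by
  intro h
  have h1 := congrArg (fun g : GL I7 (ZMod 3) => (g : Matrix I7 I7 (ZMod 3))) h
  simp only [Units.val_mul] at h1
  rw [Ym_getD (by norm_num), Ym_getD (by norm_num), gl_coe (LC_inv 0 (by norm_num)).1 (LC_inv 0 (by norm_num)).2,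
    gl_coe (LC_inv 1 (by norm_num)).1 (LC_inv 1 (by norm_num)).2, ← M_mul, ← M_mul] at h1
  exact noncomm_code h1

instance nontrivial_mat : Nontrivial (Kd Ym 20 0) := by
  refine ⟨⟨⟨Ym.getD 0 1, getD_mem_Kd Ym (le_refl 0) (by norm_num)⟩, 1, ?_⟩⟩
  intro h
  have h1 : Ym.getD 0 1 = 1 := congrArg Subtype.val h
  apply noncomm
  rw [h1, one_mul, mul_one]

theorem card_POmega : Nat.card (Cfsg.POmega (ZMod 3) (Cfsg.quadFormOdd 3 (ZMod 3))) = 4585351680 := by
  have h := Cfsg.Agent.S0292.result (F := ZMod 3) (q := 3) (ZMod.card 3) (by decide) 3 (le_refl 3)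
  norm_num [Finset.prod_range_succ] at h
  omega

/-- the permutation group of degree 351 is `PΩ(7,3)`. -/
theorem mat_iso : Nonempty (Kd Yp 20 0 ≃* Cfsg.POmega (ZMod 3) (Cfsg.quadFormOdd 3 (ZMod 3))) := by
  obtain ⟨e⟩ := abs_iso Ym rels_mat
  have hs := (abs_simple Ym rels_mat).1
  have hc := (abs_simple Ym rels_mat).2
  have : Finite (Cfsg.POmega (ZMod 3) (Cfsg.quadFormOdd 3 (ZMod 3))) :=
    Nat.finite_of_card_ne_zero (by rw [card_POmega]; norm_num)
  obtain ⟨e'⟩ := simple_to_quot (O := Cfsg.isometryGroup (ZMod 3) (Cfsg.quadFormOdd 3 (ZMod 3)))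
    (S := Kd Ym 20 0) (Subgroup.inclusion Kd_le_iso) (Subgroup.inclusion_injective _)
    ⟨⟨Ym.getD 0 1, getD_mem_Kd Ym (le_refl 0) (by norm_num)⟩, ⟨Ym.getD 1 1, getD_mem_Kd Ym (Nat.zero_le 1) (by norm_num)⟩,
      fun h => noncomm (congrArg Subtype.val h)⟩
    (by rw [hc]; exact card_POmega.symm)
  exact ⟨e.trans e'⟩

end Cfsg.Agent.Lib.Helper88.O73
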