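import Cfsg.Agent.Lib.Helper88.FiPRel
import Cfsg.Agent.Lib.Helper88.FiPRelS0
import Cfsg.Agent.Lib.Helper88.FiPRelS1
import Cfsg.Agent.Lib.Helper88.FiPRelS2
import Cfsg.Agent.Lib.Helper88.O73Iso
import Cfsg.Agent.Lib.Helper88.HeSp4
import Cfsg.Agent.S1696

/-!
The presented Fischer group `Fi22` acts faithfully on 3510 points; the subgroup generated by `b, …, i` is `PΩ(7,3)`.
-/

set_option autoImplicit false

namespace Cfsg.Agent.Lib.Helper88.FiP
open TC Cfsg.Agent.Lib.Helper35 Cfsg.Spor

/-- the 21 permutations. -/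
noncomputable abbrev Y : List (Equiv.Perm (Fin 3510)) := gens 3510 nets

/-- the places of `a, …, i` in the list. -/
def fm : List ℕ := [20,0,1,2,3,4,5,6,7]

/-- the images of the generators. -/
noncomputable def v (c : ℕ) : Equiv.Perm (Fin 3510) := Y.getD (nth 21 fm c) 1

theorem relsH_eq : relsH = PresFi22.R.map (fun b => b.map fun c => 2 * nth 21 fm c + 1) := by decide +kernel

theorem hvR : ∀ b ∈ PresFi22.R, wval v b = 1 := by
  intro b hb
  have h1 : (b.map fun c => 2 * nth 21 fm c + 1) ∈ relsH := by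
    rw [relsH_eq]; exact List.mem_map_of_mem hb
  have h2 := relsOK_spec nets_ok sep_ok relH_ok _ h1
  rw [HeP.ev_inv_letters, inv_eq_one] at h2
  exact h2

theorem len_Y : Y.length = 21 := by
  show (nets.map (gp 3510)).length = 21
  rw [List.length_map]; decide +kernel

theorem v_eq (c k : ℕ) (h : nth 21 fm c = k) : v c = Y.getD k 1 := by rw [v, h]

theorem v_ge {c : ℕ} (h : 9 ≤ c) : v c = 1 := by
  have h1 : nth 21 fm c = 21 := by
    rw [nth_eq_getD, List.getD_eq_default]; simpa [fm] using h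
  rw [v, h1, List.getD_eq_default _ _ (by rw [len_Y])]

theorem relsQ_mem : ∀ c < 9, [2 * nth 21 fm c, 2 * nth 21 fm c] ∈ relsQ := by decide +kernel

theorem v_sq (c : ℕ) : v c * v c = 1 := by
  by_cases h : c < 9
  · have h2 := relsOK_spec nets_ok sep_ok relQ_ok _ (relsQ_mem c h)
    rw [ev, ev, ev, lt_even, one_mul] at h2
    exact h2
  · rw [v_ge (by omega), one_mul]

theorem hvinv (c : ℕ) : v (PresFi22.cc.inv c) = (v c)⁻¹ := by
  rw [show PresFi22.cc.inv c = c from invOf_range 9 c]
  exact eq_inv_of_mul_eq_one_left (v_sq c)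

/-- the permutation representation of degree 3510 of the presented group `Fi22`. -/
noncomputable def rho : Fi22 →* Equiv.Perm (Fin 3510) :=
  PresentedGroup.toGroup (f := fun x => v (PresFi22.cc.colIdx x))
    (cox_lift_eq_one Fi22.edges Fi22.extra PresFi22.cc PresFi22.extraL PresFi22.R PresFi22.allGens PresFi22.hOK
      PresFi22.hextra v hvinv hvR)

theorem rho_of (x : Fi22.Gen) : rho (PresentedGroup.of x) = v (PresFi22.colIdx x) := PresentedGroup.toGroup.of _

/-- generators defined by words in earlier generators lie in every subgroup which contains the first ones. -/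
theorem mem_of_defs2 {Γ : Type*} [Group Γ] (Y : List Γ) (S : Subgroup Γ) (n0 n : ℕ) (D : List (List ℕ))
    (hS : ∀ k < n0, Y.getD k 1 ∈ S)
    (hD : ∀ k, n0 ≤ k → k < n → ev Y (nth [] D k ++ [2 * k + 1]) = 1)
    (hl : ∀ k, n0 ≤ k → k < n → ∀ l ∈ nth [] D k, l < 2 * k) :
    ∀ k < n, Y.getD k 1 ∈ S := by
  intro k
  induction k using Nat.strong_induction_on with
  | _ k ih =>
    intro hk
    by_cases h0 : k < n0
    · exact hS k h0
    have h1 := hD k (by omega) hk
    rw [ev_append, ev, ev, one_mul, lt_odd, inv_mul_eq_one] at h1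
    rw [h1]
    apply HeP.ev_mem_of
    intro l hl'
    have h2 := hl k (by omega) hk l hl'
    exact ih (l / 2) (by omega) (by omega)

/-- the generators of the subgroup `O(7,3)`. -/
abbrev Kgen : Set (FreeGroup Fi22.Gen) :=
  {Fi22.b, Fi22.c, Fi22.d, Fi22.e, Fi22.f, Fi22.g, Fi22.h, Fi22.i}

/-- the subgroup `O(7,3)`. -/
abbrev K : Subgroup Fi22 :=
  (Subgroup.closure Kgen).map (PresentedGroup.mk (coxRelators Fi22.edges ∪ {r | r ∈ Fi22.extra}))

theorem hof (x : Fi22.Gen) :
    rho (PresentedGroup.mk (coxRelators Fi22.edges ∪ {r | r ∈ Fi22.extra}) (FreeGroup.of x)) =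
      v (PresFi22.colIdx x) := rho_of x

theorem Y_mem_K : ∀ k < 8, Y.getD k 1 ∈ K.map rho := by
  intro k h2
  have key : ∀ w ∈ Kgen, rho (PresentedGroup.mk (coxRelators Fi22.edges ∪ {r | r ∈ Fi22.extra}) w) ∈ K.map rho :=
    fun w hw => Subgroup.mem_map_of_mem _ (Subgroup.mem_map_of_mem _ (Subgroup.subset_closure hw))
  interval_cases k
  · have h := key Fi22.b (by simp [Kgen])
    rw [hof] at h
    exact h
  · have h := key Fi22.c (by simp [Kgen])
    rw [hof] at h
    exact h
  · have h := key Fi22.d (by simp [Kgen])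
    rw [hof] at h
    exact h
  · have h := key Fi22.e (by simp [Kgen])
    rw [hof] at h
    exact h
  · have h := key Fi22.f (by simp [Kgen])
    rw [hof] at h
    exact h
  · have h := key Fi22.g (by simp [Kgen])
    rw [hof] at h
    exact h
  · have h := key Fi22.h (by simp [Kgen])
    rw [hof] at h
    exact h
  · have h := key Fi22.i (by simp [Kgen])
    rw [hof] at h
    exact h

theorem defs_mem : ∀ k < 20, 8 ≤ k → nth [] defs k ++ [2 * k + 1] ∈ relsD := by decide +kernel

theorem defs_let : ∀ k < 20, 8 ≤ k → ∀ l ∈ nth [] defs k, l < 2 * k := by decide +kernel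

/-- the copy of `O(7,3)`. -/
noncomputable abbrev N0 : Subgroup (Equiv.Perm (Fin 3510)) := Kd Y 20 0

theorem N0_le_K : N0 ≤ K.map rho := by
  show Kd Y 20 0 ≤ K.map rho
  rw [Kd, Subgroup.closure_le]
  rintro g ⟨k, _, h2, rfl⟩
  exact mem_of_defs2 Y _ 8 20 defs Y_mem_K
    (fun k h0 hk => relsOK_spec nets_ok sep_ok relD_ok _ (defs_mem k hk h0)) (fun k h0 hk => defs_let k hk h0) k h2

theorem K_le_N0 : K.map rho ≤ N0 := by
  rw [Subgroup.map_map, Subgroup.map_le_iff_le_comap, Subgroup.closure_le]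
  intro w hw
  have hm : ∀ k < 20, Y.getD k 1 ∈ N0 := fun k hk => getD_mem_Kd Y (Nat.zero_le k) hk
  simp only [Kgen, Set.mem_insert_iff, Set.mem_singleton_iff] at hw
  rw [SetLike.mem_coe, Subgroup.mem_comap, MonoidHom.comp_apply]
  rcases hw with rfl | rfl | rfl | rfl | rfl | rfl | rfl | rfl
  · rw [hof]; exact hm 0 (by norm_num)
  · rw [hof]; exact hm 1 (by norm_num)
  · rw [hof]; exact hm 2 (by norm_num)
  · rw [hof]; exact hm 3 (by norm_num)
  · rw [hof]; exact hm 4 (by norm_num)
  · rw [hof]; exact hm 5 (by norm_num)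
  · rw [hof]; exact hm 6 (by norm_num)
  · rw [hof]; exact hm 7 (by norm_num)

theorem K_map : K.map rho = N0 := le_antisymm K_le_N0 N0_le_K

instance nontrivial_N0 : Nontrivial N0 := by
  have h := level_ge nets_ok (Nat.zero_le 20) (b := ⟨0, by norm_num⟩) fixT orbN
  rw [card_Kd_self] at h
  show Nontrivial (Kd (gens 3510 nets) 20 0)
  exact Finite.one_lt_card_iff_nontrivial.1 (by omega)

theorem rho_inj : Function.Injective rho := by
  have hs : IsSimpleGroup Fi22 := Cfsg.Agent.S1696.result.1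
  rcases hs.eq_bot_or_eq_top_of_normal rho.ker inferInstance with h | h
  · exact (MonoidHom.ker_eq_bot_iff _).1 h
  · exfalso
    obtain ⟨x, y, hxy⟩ := nontrivial_N0
    have h1 : ∀ z : N0, (z : Equiv.Perm (Fin 3510)) = 1 := by
      intro z
      obtain ⟨w, _, hw⟩ := N0_le_K z.2
      rw [← hw]
      have : w ∈ rho.ker := by rw [h]; trivial
      exact this
    exact hxy (Subtype.ext ((h1 x).trans (h1 y).symm))

theorem relS : ∀ W ∈ O73.rels, ev Y W = 1 := by
  intro W hW
  rw [relsS_eq, List.mem_append, List.mem_append] at hW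
  rcases hW with (hW | hW) | hW
  · exact relsOK_spec nets_ok sep_ok relS0_ok W hW
  · exact relsOK_spec nets_ok sep_ok relS1_ok W hW
  · exact relsOK_spec nets_ok sep_ok relS2_ok W hW

theorem K_iso : Nonempty (K ≃* Cfsg.POmega (ZMod 3) (Cfsg.quadFormOdd 3 (ZMod 3))) := by
  obtain ⟨e⟩ := O73.abs_iso Y relS
  obtain ⟨e'⟩ := O73.mat_iso
  exact ⟨((Subgroup.equivMapOfInjective K rho rho_inj).trans (MulEquiv.subgroupCongr K_map)).trans (e.symm.trans e')⟩

end Cfsg.Agent.Lib.Helper88.FiP
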