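import Cfsg.Agent.Lib.Helper88.FiUData

set_option autoImplicit false
set_option maxRecDepth 1000000
set_option maxHeartbeats 0

namespace Cfsg.Agent.Lib.Helper88.FiU
open TC

theorem relU_ok : relOK nets FiP.Bs (rep 5 [10,4,2,0,48,44] ++ [47]) = true := by decide +kernel

theorem relR_ok : relOK nets FiP.Bs (Wr ++ [15]) = true := by decide +kernel

theorem relV_ok : relOK nets FiP.Bs (Wu ++ [47]) = true := by decide +kernel

theorem relC_ok : relOK nets FiP.Bs Wc = true := by decide +kernel

theorem mapsZ : mapsOK nets [44] 1 14 = true := by decide +kernel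

end Cfsg.Agent.Lib.Helper88.FiU
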