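import Cfsg.Agent.Lib.Helper88.U62Data

set_option autoImplicit false
set_option maxRecDepth 1000000
set_option maxHeartbeats 0

namespace Cfsg.Agent.Lib.Helper88.U62
open TC

noncomputable def st5 : List (ℕ × ℕ × List ℕ) := parse (unpI 256 [0x280000f00000180083600000280083500000180000f000001814000])

theorem par5 : parOK 4 15 20 22 rels = true := by decide +kernel

theorem fin5 : finOK 4 15 23 20 2 (run 4 15 23 20 rels st5 (initS 4 23 22)) = true := by
  decide +kernel

theorem fix5 : fixOK nets 23 22 10 = true := by decide +kernel

theorem orb5 : Nat.ble 2 (cnt 693 (orb nets (lets 23 20) [40] 10)) = true := by decide +kernel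

end Cfsg.Agent.Lib.Helper88.U62
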