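import Cfsg.Agent.Lib.Helper88.U62Data

set_option autoImplicit false
set_option maxRecDepth 1000000
set_option maxHeartbeats 0

namespace Cfsg.Agent.Lib.Helper88.U62
open TC

noncomputable def st6 : List (ℕ × ℕ × List ℕ) := parse (unpI 256 [0x1800834000001816000])

theorem par6 : parOK 4 15 22 23 rels = true := by decide +kernel

theorem fin6 : finOK 4 15 23 22 2 (run 4 15 23 22 rels st6 (initS 4 23 23)) = true := by
  decide +kernel


end Cfsg.Agent.Lib.Helper88.U62
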