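import Cfsg.Agent.Lib.Helper88.U62Data

set_option autoImplicit false
set_option maxRecDepth 1000000
set_option maxHeartbeats 0

namespace Cfsg.Agent.Lib.Helper88.U62
open TC

def pd : PD := [
  ([0], 1, [20,16,20,24,26,28,30,20,26,24,20,28,20], [0,21,0,17,21,25,27,29,31,21,33,21,0,21,25,27]),
  ([0,4], 2, [20,24,16,20,26,28,24,20,24,34,16], [0,21,25,17,21,27,29,25,21,0,25,21,29,27,21])]

def Zs : List (List ℕ) := [
  [8,7,20],
  [9,20,11],
  [9,20,11],
  [21,7,3],
  [3,10,21],
  [20,27,4],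
  [0,30,20],
  [6,11,20],
  [3,10,21],
  [6,11,20],
  [8,7,20],
  [3,10,21],
  [21,7,8],
  [8,7,20],
  [21,7,8],
  [21,13,23],
  [8,7,20],
  [8,7,20],
  [0,30,20],
  [21,13,23],
  [6,11,20],
  [8,7,20],
  [8,7,20]]

theorem tr_ok : Nat.beq (orb nets (lets 23 0) [0,4,10,20,24,26,20,28,24,26,20,36,24] 0) (fullN 693) = true := by decide +kernel

theorem prim_ok : primOK nets 693 23 8 0 pd = true := by decide +kernel

theorem simp_ok : simpOK nets Bs 23 11 Zs = true := by decide +kernel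

theorem z_ok : relOK nets Bs [44] = true := by decide +kernel

end Cfsg.Agent.Lib.Helper88.U62
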