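import Cfsg.Agent.Lib.Helper88.TCRigid
import Cfsg.Agent.Lib.Helper88.U62Rel0
import Cfsg.Agent.Lib.Helper88.U62Rel1
import Cfsg.Agent.Lib.Helper88.U62L0
import Cfsg.Agent.Lib.Helper88.U62L1
import Cfsg.Agent.Lib.Helper88.U62L2
import Cfsg.Agent.Lib.Helper88.U62L3
import Cfsg.Agent.Lib.Helper88.U62L4
import Cfsg.Agent.Lib.Helper88.U62L5
import Cfsg.Agent.Lib.Helper88.U62L6
import Cfsg.Agent.Lib.Helper88.U62Simp

/-!
The simple group `U(6,2)` as a permutation group of degree 693.  The relators `U62.rels` on twenty-three generators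
define its double cover; together with the vanishing of the last generator they define the simple group.
-/

set_option autoImplicit false

namespace Cfsg.Agent.Lib.Helper88.U62
open TC

/-- the twenty-three generating permutations (the last one is trivial). -/
noncomputable abbrev Yp : List (Equiv.Perm (Fin 693)) := gens 693 nets

theorem rels_perm : ∀ W ∈ rels, ev Yp W = 1 := by
  intro W hW
  rw [rels_eq] at hW
  simp only [List.mem_append] at hW
  rcases hW with ((((((hW | hW) | hW) | hW) | hW) | hW) | hW) | hW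
  · exact relsOK_spec nets_ok sep_ok rel0_ok W hW
  · exact relsOK_spec nets_ok sep_ok rel1_ok W hW
  · exact relsOK_spec nets_ok sep_ok rel2_ok W hW
  · exact relsOK_spec nets_ok sep_ok rel3_ok W hW
  · exact relsOK_spec nets_ok sep_ok rel4_ok W hW
  · exact relsOK_spec nets_ok sep_ok rel5_ok W hW
  · exact relsOK_spec nets_ok sep_ok rel6_ok W hW
  · exact relsOK_spec nets_ok sep_ok rel7_ok W hW

theorem Kd_last {Γ : Type*} [Group Γ] (Y : List Γ) (h : Y.getD 22 1 = 1) : Kd Y 23 22 = ⊥ := by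
  rw [Kd, Subgroup.closure_eq_bot_iff]
  rintro g ⟨k, h1, h2, rfl⟩
  have : k = 22 := by omega
  rw [this, h]
  rfl

theorem card_Kd_last {Γ : Type*} [Group Γ] (Y : List Γ) (h : Y.getD 22 1 = 1) : Nat.card (Kd Y 23 22) = 1 := by
  rw [Kd_last Y h]
  exact Subgroup.card_bot

theorem last_perm : Yp.getD 22 1 = 1 := by
  have h := relOK_spec nets_ok sep_ok z_ok
  rw [ev, ev, one_mul] at h
  rw [← h]
  exact (lt_even Yp 22).symm

theorem card_perm : Nat.card (Kd Yp 23 0) = 9196830720 := by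
  have c0 := level_eq' nets_ok rels_perm par0 fin0 (b := ⟨0, by norm_num⟩) fix0 orb0
  have c1 := level_eq' nets_ok rels_perm par1 fin1 (b := ⟨1, by norm_num⟩) fix1 orb1
  have c2 := level_eq' nets_ok rels_perm par2 fin2 (b := ⟨2, by norm_num⟩) fix2 orb2
  have c3 := level_eq' nets_ok rels_perm par3 fin3 (b := ⟨3, by norm_num⟩) fix3 orb3
  have c4 := level_eq' nets_ok rels_perm par4 fin4 (b := ⟨6, by norm_num⟩) fix4 orb4
  have c5 := level_eq' nets_ok rels_perm par5 fin5 (b := ⟨10, by norm_num⟩) fix5 orb5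
  rw [card_Kd_last _ last_perm] at c5
  rw [c5] at c4
  rw [c4] at c3
  rw [c3] at c2
  rw [c2] at c1
  rw [c1] at c0
  rw [c0]

instance simple_perm : IsSimpleGroup (Kd Yp 23 0) := by
  have : Fact (Nat.Prime 11) := ⟨by norm_num⟩
  exact TC.simple_perm nets_ok sep_ok (b := ⟨0, by norm_num⟩) fix0 tr_ok prim_ok (p := 11) (by norm_num)
    (by rw [card_perm]; norm_num) (by rw [card_perm]; norm_num) simp_ok

theorem rels_let : ∀ W ∈ rels, ∀ l ∈ W, l < 2 * 23 := by decide +kernel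

/-- the relators bound the order in every group. -/
theorem card_le_abs {Γ : Type*} [Group Γ] (Y : List Γ) (h : ∀ W ∈ rels, ev Y W = 1) :
    Finite (Kd Y 23 0) ∧ Nat.card (Kd Y 23 0) ≤ 18393661440 := by
  have f23 : Finite (Kd Y 23 23) := by rw [Kd_self]; infer_instance
  obtain ⟨f6, c6⟩ := level_le h par6 fin6
  obtain ⟨f5, c5⟩ := level_le h par5 fin5
  obtain ⟨f4, c4⟩ := level_le h par4 fin4
  obtain ⟨f3, c3⟩ := level_le h par3 fin3
  obtain ⟨f2, c2⟩ := level_le h par2 fin2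
  obtain ⟨f1, c1⟩ := level_le h par1 fin1
  obtain ⟨f0, c0⟩ := level_le h par0 fin0
  rw [card_Kd_self] at c6
  refine ⟨f0, ?_⟩
  omega

/-- the bound when the last generator is trivial. -/
theorem card_le_abs' {Γ : Type*} [Group Γ] (Y : List Γ) (h : ∀ W ∈ rels, ev Y W = 1) (hz : Y.getD 22 1 = 1) :
    Finite (Kd Y 23 0) ∧ Nat.card (Kd Y 23 0) ≤ 9196830720 := by
  have f22 : Finite (Kd Y 23 22) := by rw [Kd_last Y hz]; infer_instance
  obtain ⟨f5, c5⟩ := level_le h par5 fin5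
  obtain ⟨f4, c4⟩ := level_le h par4 fin4
  obtain ⟨f3, c3⟩ := level_le h par3 fin3
  obtain ⟨f2, c2⟩ := level_le h par2 fin2
  obtain ⟨f1, c1⟩ := level_le h par1 fin1
  obtain ⟨f0, c0⟩ := level_le h par0 fin0
  rw [card_Kd_last Y hz] at c5
  refine ⟨f0, ?_⟩
  omega

theorem rels_zip {Γ Γ' : Type*} [Group Γ] [Group Γ'] (Y : List Γ) (Y' : List Γ') (h : ∀ W ∈ rels, ev Y W = 1)
    (h' : ∀ W ∈ rels, ev Y' W = 1) : ∀ W ∈ rels, ev (zipY Y Y' 23) W = 1 := by
  intro W hW
  rw [ev_zipY _ _ W (rels_let W hW), h W hW, h' W hW]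
  rfl

/-- **The relators, with the last generator trivial, define `U(6,2)`.** -/
theorem abs_iso {Γ : Type*} [Group Γ] (Y : List Γ) (h : ∀ W ∈ rels, ev Y W = 1) (hz : Y.getD 22 1 = 1)
    [Nontrivial (Kd Y 23 0)] : Nonempty (Kd Yp 23 0 ≃* Kd Y 23 0) := by
  have hz' : (zipY Y Yp 23).getD 22 1 = 1 := by
    rw [zipY_getD _ _ (by norm_num), hz, last_perm]
    rfl
  obtain ⟨hf, hc⟩ := card_le_abs' _ (rels_zip Y Yp h rels_perm) hz'
  exact rigid Y Yp card_perm hf hc

/-- a group of the full order generated by elements satisfying the relators maps onto the simple group. -/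
theorem abs_cover {Γ : Type*} [Group Γ] (Y : List Γ) (h : ∀ W ∈ rels, ev Y W = 1)
    (hc : Nat.card (Kd Y 23 0) = 18393661440) :
    ∃ φ : Kd Y 23 0 →* Kd Yp 23 0, Function.Surjective φ ∧
      ∀ W : List ℕ, (∀ l ∈ W, l < 2 * 23) → ∀ hm : ev Y W ∈ Kd Y 23 0,
        ((φ ⟨ev Y W, hm⟩ : Kd Yp 23 0) : Equiv.Perm (Fin 693)) = ev Yp W := by
  obtain ⟨hf, hc'⟩ := card_le_abs _ (rels_zip Yp Y rels_perm h)
  exact exists_hom Yp Y hc hf hc'

end Cfsg.Agent.Lib.Helper88.U62
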