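import Cfsg.Agent.Lib.Helper88.SUGlue
import Cfsg.Agent.Lib.Helper88.FiRho
import Cfsg.Agent.Lib.Helper88.U62Abs
import Cfsg.Agent.S0280

/-!
The group `PSU(6,2)` over the concrete field with four elements is isomorphic to the permutation group of degree 693 of
`U62Abs`.
-/

set_option autoImplicit false
set_option maxRecDepth 100000

namespace Cfsg.Agent.Lib.Helper88.U62
open TC MC4 Matrix Cfsg.Agent.Lib.Helper34

/-- the matrix with a given code. -/
abbrev M (t : ℕ) : Matrix (Fin 6) (Fin 6) F4c := MC4.mk 6 Fin.val t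

/-- the code of the product. -/
noncomputable abbrev mu (s t : ℕ) : ℕ := MC4.mulC 6 s t

theorem M_mul (s t : ℕ) : M (mu s t) = M s * M t :=
  MC4.mk_mulC (fun i => i.2) (fun f => Fin.sum_univ_eq_sum_range f 6) s t

/-- the codes of the scalar matrices. -/
def eC : ℕ := 0x400100040010004001
def e1 : ℕ := 0x800200080020008002
def e2 : ℕ := 0xc003000c003000c003

theorem M_one : M eC = 1 := by decide +kernel
theorem M_e1 : M e1 = F4c.ofN 2 • (1 : Matrix (Fin 6) (Fin 6) F4c) := by decide +kernel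
theorem M_e2 : M e2 = F4c.ofN 3 • (1 : Matrix (Fin 6) (Fin 6) F4c) := by decide +kernel

/-- the invertible matrix with a given code (and a given code of the inverse). -/
noncomputable def gl (c c' : ℕ) : GL (Fin 6) F4c :=
  open Classical in if h : M c * M c' = 1 ∧ M c' * M c = 1 then ⟨M c, M c', h.1, h.2⟩ else 1

theorem gl_ok {c c' : ℕ} (h1 : mu c c' = eC) (h2 : mu c' c = eC) : M c * M c' = 1 ∧ M c' * M c = 1 :=
  ⟨by rw [← M_mul, h1, M_one], by rw [← M_mul, h2, M_one]⟩

theorem gl_coe {c c' : ℕ} (h1 : mu c c' = eC) (h2 : mu c' c = eC) :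
    ((gl c c' : GL (Fin 6) F4c) : Matrix (Fin 6) (Fin 6) F4c) = M c := by
  rw [gl, dif_pos (gl_ok h1 h2)]

theorem gl_inv_coe {c c' : ℕ} (h1 : mu c c' = eC) (h2 : mu c' c = eC) :
    (((gl c c')⁻¹ : GL (Fin 6) F4c) : Matrix (Fin 6) (Fin 6) F4c) = M c' := by
  rw [gl, dif_pos (gl_ok h1 h2)]
  rfl

/-- the codes of the letters. -/
def LC : List ℕ := [0x100400040010004001,0x100400040010004001,0x200c00040010004001,0x200c00040010004001,0x150450510540004001,0x150450510540004001,0x4001000200c0004001,0x4001000200c0004001,0x400100010040004001,0x400100010040004001,0x105405040010501504,0x105405040010501504,0x40010004001000200c,0x40010004001000200c,0x40010001a04a0f10f4,0x40010001a04a0f10f4,0x400100010040004001,0x400100010040004001,0x40010001a04a0f10f4,0x40010001a04a0f10f4,0xc6e2afab1f51e20746,0x8e93ee7d1f9ca01e53,0x400100010040004001,0x400100010040004001,0xe25b25f46a30f4904f,0xbb8eb8045f2054e5c6,0x10e40ef46f16aa3fa8,0x1ae4ae04f01fa53ff8,0x15b45b045015fa2afc,0x10b40b54e51ef52a5c,0x400100015045054051,0x400100015045054051,0x40010001f04f0a40a1,0x40010001f04f0a40a1,0x40010004f01f0a40a1,0x40010004f01f0a40a1,0x40010004a01a0f10f4,0x40010004a01a0f10f4,0x400100045015051054,0x400100045015051054,0x40010001a04a0f10f4,0x40010001a04a0f10f4,0x400100040010004001,0x400100040010004001,0x400100040010004001,0x400100040010004001]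

/-- the words which define the later generators. -/
def defs : List (List ℕ) := [[],
  [],
  [],
  [],
  [],
  [],
  [],
  [],
  [8],
  [14],
  [2,6,4,8,12,14,6,4,2,0,12,10,2,9,5,7,15,5,3,11,13,7,9,5,7,3],
  [16],
  [21,21,18,20,18,20,20,19,20,20],
  [24,22,24,24,22,24,24,24,23,24,23,25,25,25],
  [24,22,25,25,22,25,22,24,23,24,23,24,24,23,24],
  [27,28,28,26],
  [28,26,26,29],
  [29,26,26,28],
  [28,28,26,29,27],
  [29,26,28,27,27],
  [38,33],
  [36,38,35],
  [42]]

theorem defs_mem : ∀ k, 8 ≤ k → k < 23 → nth [] defs k ++ [2 * k + 1] ∈ rels := by decide +kernel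

theorem defs_let : ∀ k, 8 ≤ k → k < 23 → ∀ l ∈ nth [] defs k, l < 2 * k := by decide +kernel

/-- the twenty-three generating matrices. -/
noncomputable def Ym : List (GL (Fin 6) F4c) :=
  (List.range 23).map fun k => gl (nth 0 LC (2 * k)) (nth 0 LC (2 * k + 1))

theorem LC_inv : ∀ k < 23, mu (nth 0 LC (2 * k)) (nth 0 LC (2 * k + 1)) = eC ∧
    mu (nth 0 LC (2 * k + 1)) (nth 0 LC (2 * k)) = eC := by
  decide +kernel

theorem Ym_getD {k : ℕ} (h : k < 23) : Ym.getD k 1 = gl (nth 0 LC (2 * k)) (nth 0 LC (2 * k + 1)) := by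
  rw [Ym, List.getD_eq_getElem _ _ (by simpa using h)]
  simp

theorem Ym_coe {k : ℕ} (h : k < 23) :
    ((Ym.getD k 1 : GL (Fin 6) F4c) : Matrix (Fin 6) (Fin 6) F4c) = M (nth 0 LC (2 * k)) := by
  rw [Ym_getD h, gl_coe (LC_inv k h).1 (LC_inv k h).2]

theorem lt_Ym {l : ℕ} (h : l < 46) : ((lt Ym l : GL (Fin 6) F4c) : Matrix (Fin 6) (Fin 6) F4c) = M (nth 0 LC l) := by
  rcases Nat.even_or_odd' l with ⟨k, rfl | rfl⟩
  · rw [lt_even, Ym_getD (by omega), gl_coe (LC_inv k (by omega)).1 (LC_inv k (by omega)).2]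
  · rw [lt_odd, Ym_getD (by omega), gl_inv_coe (LC_inv k (by omega)).1 (LC_inv k (by omega)).2]

theorem ev_Ym (W : List ℕ) (h : ∀ l ∈ W, l < 2 * 23) :
    ((ev Ym W : GL (Fin 6) F4c) : Matrix (Fin 6) (Fin 6) F4c) = M (evC 6 eC LC W) := by
  induction W with
  | nil => rw [evC_nil, M_one]; rfl
  | cons l r ih =>
    rw [ev, evC_cons, M_mul, Units.val_mul, ih fun l' hl' => h l' (List.mem_cons_of_mem _ hl'),
      lt_Ym (h l List.mem_cons_self)]

theorem rels_code0 : relsC 6 eC e1 e2 LC rels0 = true := by decide +kernel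

theorem rels_code1 : relsC 6 eC e1 e2 LC rels1 = true := by decide +kernel

theorem rels_code2 : relsC 6 eC e1 e2 LC rels2 = true := by decide +kernel

theorem rels_code3 : relsC 6 eC e1 e2 LC rels3 = true := by decide +kernel

theorem rels_code4 : relsC 6 eC e1 e2 LC rels4 = true := by decide +kernel

theorem rels_code5 : relsC 6 eC e1 e2 LC rels5 = true := by decide +kernel

theorem rels_code6 : relsC 6 eC e1 e2 LC rels6 = true := by decide +kernel

theorem rels_code7 : relsC 6 eC e1 e2 LC rels7 = true := by decide +kernel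

theorem rels_code : ∀ W ∈ rels, evC 6 eC LC W = eC ∨ evC 6 eC LC W = e1 ∨ evC 6 eC LC W = e2 := by
  intro W hW
  rw [rels_eq] at hW
  simp only [List.mem_append] at hW
  rcases hW with ((((((hW | hW) | hW) | hW) | hW) | hW) | hW) | hW
  · exact relsC_spec rels_code0 W hW
  · exact relsC_spec rels_code1 W hW
  · exact relsC_spec rels_code2 W hW
  · exact relsC_spec rels_code3 W hW
  · exact relsC_spec rels_code4 W hW
  · exact relsC_spec rels_code5 W hW
  · exact relsC_spec rels_code6 W hW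
  · exact relsC_spec rels_code7 W hW

theorem defs_code : ∀ k, 8 ≤ k → k < 23 → evC 6 eC LC (nth [] defs k ++ [2 * k + 1]) = eC := by decide +kernel

theorem defs_mat : ∀ k, 8 ≤ k → k < 23 → ev Ym (nth [] defs k ++ [2 * k + 1]) = 1 := by
  intro k h1 h2
  apply Units.ext
  rw [ev_Ym _ (rels_let _ (defs_mem k h1 h2)), defs_code k h1 h2, M_one]
  rfl

theorem sq_code : ∀ k < 8, mu (nth 0 LC (2 * k)) (nth 0 LC (2 * k)) = eC := by decide +kernel

theorem form_code : ∀ k < 8, (M (nth 0 LC (2 * k)))ᵀ * (M (nth 0 LC (2 * k))).map (· ^ 2) = 1 := by decide +kernel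

theorem Ym_range : ∀ k < 23, Ym.getD k 1 ∈ (SU4.iota 6).range := by
  apply FiP.mem_of_defs2 Ym _ 8 23 defs _ defs_mat defs_let
  intro k hk
  apply SU4.mem_range
  · rw [Ym_coe (by omega)]
    apply SU4.det_of_sq
    rw [← M_mul, sq_code k hk, M_one]
  · rw [Ym_coe (by omega)]
    exact form_code k hk

theorem exists_lift : ∃ Y' : List (Cfsg.SU 6 F4c 2), Y'.map (SU4.iota 6) = Ym := by
  apply exists_list
  intro g hg
  rw [Ym, List.mem_map] at hg
  obtain ⟨k, hk, rfl⟩ := hg
  rw [List.mem_range] at hk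
  rw [← Ym_getD hk]
  exact Ym_range k hk

theorem noncomm_code : M (mu (nth 0 LC 0) (nth 0 LC 2)) ≠ M (mu (nth 0 LC 2) (nth 0 LC 0)) := by decide +kernel

theorem noncomm : Ym.getD 0 1 * Ym.getD 1 1 ≠ Ym.getD 1 1 * Ym.getD 0 1 := by
  intro h
  have h1 := congrArg (fun g : GL (Fin 6) F4c => (g : Matrix (Fin 6) (Fin 6) F4c)) h
  simp only [Units.val_mul] at h1
  rw [Ym_coe (by norm_num), Ym_coe (by norm_num), ← M_mul, ← M_mul] at h1
  exact noncomm_code h1

theorem last_code : nth 0 LC 44 = eC := by decide +kernel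

theorem last_mat : Ym.getD 22 1 = 1 := by
  apply Units.ext
  rw [Ym_coe (by norm_num), last_code, M_one]
  rfl

theorem card_PSU : Nat.card (Cfsg.PSU 6 F4c 2) = 9196830720 := by
  have h := Cfsg.Agent.S0280.result (F := F4c) (q := 2) (by decide) 6 (by norm_num)
  norm_num [Finset.prod_range_succ, Nat.even_iff] at h
  omega

/-- the permutation group of degree 693 is `PSU(6,2)`. -/
theorem mat_iso : Nonempty (Kd Yp 23 0 ≃* Cfsg.PSU 6 F4c 2) := by
  obtain ⟨Y', hY'⟩ := exists_lift
  let q := QuotientGroup.mk' (Subgroup.center (Cfsg.SU 6 F4c 2))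
  have hrel : ∀ W ∈ rels, ev (Y'.map q) W = 1 := by
    intro W hW
    rw [ev_map]
    apply (QuotientGroup.eq_one_iff _).2
    have h1 : SU4.iota 6 (ev Y' W) = ev Ym W := by rw [← ev_map, hY']
    rcases rels_code W hW with h | h | h
    · exact SU4.central_of_scalar _ 1 (by rw [h1, ev_Ym W (rels_let W hW), h, M_one, one_smul])
    · exact SU4.central_of_scalar _ (F4c.ofN 2) (by rw [h1, ev_Ym W (rels_let W hW), h, M_e1])
    · exact SU4.central_of_scalar _ (F4c.ofN 3) (by rw [h1, ev_Ym W (rels_let W hW), h, M_e2])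
  have hz : (Y'.map q).getD 22 1 = 1 := by
    have h1 : Y'.getD 22 1 = 1 := by
      apply SU4.iota_inj
      rw [← getD_map, hY', map_one]
      exact last_mat
    rw [getD_map, h1, map_one]
  have hnt : Nontrivial (Kd (Y'.map q) 23 0) := by
    refine ⟨⟨⟨(Y'.map q).getD 0 1, getD_mem_Kd _ (le_refl 0) (by norm_num)⟩, 1, ?_⟩⟩
    intro h
    have h1 : (Y'.map q).getD 0 1 = 1 := congrArg Subtype.val h
    rw [getD_map] at h1
    have h2 : Y'.getD 0 1 ∈ Subgroup.center (Cfsg.SU 6 F4c 2) := (QuotientGroup.eq_one_iff _).1 h1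
    have h3 := (Subgroup.mem_center_iff.1 h2) (Y'.getD 1 1)
    apply noncomm
    rw [← hY', getD_map, getD_map, ← map_mul, ← map_mul, h3]
  obtain ⟨e⟩ := abs_iso (Y'.map q) hrel hz
  have hc : Nat.card (Kd (Y'.map q) 23 0) = 9196830720 := by rw [← Nat.card_congr e.toEquiv, card_perm]
  have hfin : Finite (Cfsg.PSU 6 F4c 2) := Nat.finite_of_card_ne_zero (by rw [card_PSU]; norm_num)
  have htop : Kd (Y'.map q) 23 0 = ⊤ := Subgroup.eq_top_of_card_eq _ (by rw [hc, card_PSU])
  exact ⟨e.trans ((MulEquiv.subgroupCongr htop).trans Subgroup.topEquiv)⟩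

end Cfsg.Agent.Lib.Helper88.U62
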