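import Cfsg.Agent.Lib.Helper88.FiURel0
import Cfsg.Agent.Lib.Helper88.FiURel1
import Cfsg.Agent.Lib.Helper88.FiURel2
import Cfsg.Agent.Lib.Helper88.FiURel3
import Cfsg.Agent.Lib.Helper88.FiURel4
import Cfsg.Agent.Lib.Helper88.FiURel5
import Cfsg.Agent.Lib.Helper88.FiURel6
import Cfsg.Agent.Lib.Helper88.FiURel7
import Cfsg.Agent.Lib.Helper88.FiURelX
import Cfsg.Agent.Lib.Helper88.U62Mat
import Cfsg.Agent.S1687

/-!
In the presented Fischer group `Fi22` the subgroup generated by `a, c, …, i, (abcdeh)^5` is a non-split double cover of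
`PSU(6,2)`.
-/

set_option autoImplicit false

namespace Cfsg.Agent.Lib.Helper88.FiU
open TC Cfsg.Agent.Lib.Helper35 Cfsg.Agent.Lib.Helper34 Cfsg.Spor
open scoped commutatorElement

/-- the 25 permutations. -/
noncomputable abbrev Y : List (Equiv.Perm (Fin 3510)) := gens 3510 nets

theorem Y_eq (k j : ℕ) (h : (k, j) ∈ [(0,1),(1,2),(2,3),(3,4),(4,5),(5,6),(6,7),(22,20),(24,0)]) :
    Y.getD k 1 = FiP.Y.getD j 1 := by
  rw [gens_getD, gens_getD, nets_eq (k, j) h]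

theorem relS : ∀ W ∈ U62.rels, ev Y W = 1 := by
  intro W hW
  rw [U62.rels_eq] at hW
  simp only [List.mem_append] at hW
  rcases hW with ((((((hW | hW) | hW) | hW) | hW) | hW) | hW) | hW
  · exact relsOK_spec nets_ok FiP.sep_ok relS0_ok W hW
  · exact relsOK_spec nets_ok FiP.sep_ok relS1_ok W hW
  · exact relsOK_spec nets_ok FiP.sep_ok relS2_ok W hW
  · exact relsOK_spec nets_ok FiP.sep_ok relS3_ok W hW
  · exact relsOK_spec nets_ok FiP.sep_ok relS4_ok W hW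
  · exact relsOK_spec nets_ok FiP.sep_ok relS5_ok W hW
  · exact relsOK_spec nets_ok FiP.sep_ok relS6_ok W hW
  · exact relsOK_spec nets_ok FiP.sep_ok relS7_ok W hW

/-- the generators of the subgroup. -/
abbrev Kgen : Set (FreeGroup Fi22.Gen) :=
  {Fi22.a, Fi22.c, Fi22.d, Fi22.e, Fi22.f, Fi22.g, Fi22.h, Fi22.i,
    (Fi22.a * Fi22.b * Fi22.c * Fi22.d * Fi22.e * Fi22.h) ^ 5}

/-- the subgroup. -/
abbrev K : Subgroup Fi22 :=
  (Subgroup.closure Kgen).map (PresentedGroup.mk (coxRelators Fi22.edges ∪ {r | r ∈ Fi22.extra}))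

/-- the composition of the projection and the permutation representation. -/
noncomputable abbrev pr : FreeGroup Fi22.Gen →* Equiv.Perm (Fin 3510) :=
  FiP.rho.comp (PresentedGroup.mk (coxRelators Fi22.edges ∪ {r | r ∈ Fi22.extra}))

theorem im_a : pr Fi22.a = Y.getD 22 1 := by
  rw [Y_eq 22 20 (by simp)]; exact (FiP.hof _).trans (FiP.v_eq _ 20 rfl)
theorem im_b : pr Fi22.b = Y.getD 24 1 := by
  rw [Y_eq 24 0 (by simp)]; exact (FiP.hof _).trans (FiP.v_eq _ 0 rfl)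
theorem im_c : pr Fi22.c = Y.getD 0 1 := by
  rw [Y_eq 0 1 (by simp)]; exact (FiP.hof _).trans (FiP.v_eq _ 1 rfl)
theorem im_d : pr Fi22.d = Y.getD 1 1 := by
  rw [Y_eq 1 2 (by simp)]; exact (FiP.hof _).trans (FiP.v_eq _ 2 rfl)
theorem im_e : pr Fi22.e = Y.getD 2 1 := by
  rw [Y_eq 2 3 (by simp)]; exact (FiP.hof _).trans (FiP.v_eq _ 3 rfl)
theorem im_f : pr Fi22.f = Y.getD 3 1 := by
  rw [Y_eq 3 4 (by simp)]; exact (FiP.hof _).trans (FiP.v_eq _ 4 rfl)
theorem im_g : pr Fi22.g = Y.getD 4 1 := by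
  rw [Y_eq 4 5 (by simp)]; exact (FiP.hof _).trans (FiP.v_eq _ 5 rfl)
theorem im_h : pr Fi22.h = Y.getD 5 1 := by
  rw [Y_eq 5 6 (by simp)]; exact (FiP.hof _).trans (FiP.v_eq _ 6 rfl)
theorem im_i : pr Fi22.i = Y.getD 6 1 := by
  rw [Y_eq 6 7 (by simp)]; exact (FiP.hof _).trans (FiP.v_eq _ 7 rfl)

theorem im_u : pr ((Fi22.a * Fi22.b * Fi22.c * Fi22.d * Fi22.e * Fi22.h) ^ 5) = Y.getD 23 1 := by
  have h1 := relOK_spec nets_ok FiP.sep_ok relU_ok
  rw [ev_append, ev_rep, ev, ev, one_mul, show (47 : ℕ) = 2 * 23 + 1 from rfl, lt_odd, inv_mul_eq_one] at h1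
  have h2 : ev Y [10,4,2,0,48,44] = pr (Fi22.a * Fi22.b * Fi22.c * Fi22.d * Fi22.e * Fi22.h) := by
    rw [ev, ev, ev, ev, ev, ev, ev, one_mul, show (10 : ℕ) = 2 * 5 from rfl, show (4 : ℕ) = 2 * 2 from rfl,
      show (2 : ℕ) = 2 * 1 from rfl, show (0 : ℕ) = 2 * 0 from rfl, show (48 : ℕ) = 2 * 24 from rfl,
      show (44 : ℕ) = 2 * 22 from rfl, lt_even, lt_even, lt_even, lt_even, lt_even, lt_even,
      map_mul, map_mul, map_mul, map_mul, map_mul, im_a, im_b, im_c, im_d, im_e, im_h]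
  rw [h1, h2, map_pow]

theorem K_map_eq : K.map FiP.rho = (Subgroup.closure Kgen).map pr := Subgroup.map_map _ _ _

/-- the copy of the double cover. -/
noncomputable abbrev H0 : Subgroup (Equiv.Perm (Fin 3510)) := Kd Y 23 0

theorem mem_first : ∀ k ∈ [0,1,2,3,4,5,6,22,23], Y.getD k 1 ∈ K.map FiP.rho := by
  have key : ∀ w ∈ Kgen, pr w ∈ K.map FiP.rho := by
    intro w hw
    rw [K_map_eq]
    exact Subgroup.mem_map_of_mem _ (Subgroup.subset_closure hw)
  intro k hk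
  simp only [List.mem_cons, List.not_mem_nil, or_false] at hk
  rcases hk with rfl | rfl | rfl | rfl | rfl | rfl | rfl | rfl | rfl
  · rw [← im_c]; exact key _ (by simp [Kgen])
  · rw [← im_d]; exact key _ (by simp [Kgen])
  · rw [← im_e]; exact key _ (by simp [Kgen])
  · rw [← im_f]; exact key _ (by simp [Kgen])
  · rw [← im_g]; exact key _ (by simp [Kgen])
  · rw [← im_h]; exact key _ (by simp [Kgen])
  · rw [← im_i]; exact key _ (by simp [Kgen])
  · rw [← im_a]; exact key _ (by simp [Kgen])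
  · rw [← im_u]; exact key _ (by simp [Kgen])

theorem Wr_let : ∀ l ∈ Wr, l / 2 ∈ [0,1,2,3,4,5,6,22,23] := by decide

theorem mem_r : Y.getD 7 1 ∈ K.map FiP.rho := by
  have h1 := relOK_spec nets_ok FiP.sep_ok relR_ok
  rw [ev_append, ev, ev, one_mul, show (15 : ℕ) = 2 * 7 + 1 from rfl, lt_odd, inv_mul_eq_one] at h1
  rw [h1]
  exact HeP.ev_mem_of _ _ _ fun l hl => mem_first _ (Wr_let l hl)

theorem H0_le_K : H0 ≤ K.map FiP.rho := by
  show Kd Y 23 0 ≤ K.map FiP.rho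
  rw [Kd, Subgroup.closure_le]
  rintro g ⟨k, _, h2, rfl⟩
  refine FiP.mem_of_defs2 Y _ 8 23 U62.defs ?_ (fun k h0 hk => relS _ (U62.defs_mem k h0 hk)) U62.defs_let k h2
  intro k hk
  by_cases h7 : k = 7
  · rw [h7]; exact mem_r
  · apply mem_first
    have : k < 7 := by omega
    interval_cases k <;> simp

theorem Wu_let : ∀ l ∈ Wu, 2 * 0 ≤ l ∧ l < 2 * 23 := by decide

theorem K_le_H0 : K.map FiP.rho ≤ H0 := by
  rw [K_map_eq, Subgroup.map_le_iff_le_comap, Subgroup.closure_le]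
  intro w hw
  have hm : ∀ k < 23, Y.getD k 1 ∈ H0 := fun k hk => getD_mem_Kd Y (Nat.zero_le k) hk
  simp only [Kgen, Set.mem_insert_iff, Set.mem_singleton_iff] at hw
  rw [SetLike.mem_coe, Subgroup.mem_comap]
  rcases hw with rfl | rfl | rfl | rfl | rfl | rfl | rfl | rfl | rfl
  · rw [im_a]; exact hm 22 (by norm_num)
  · rw [im_c]; exact hm 0 (by norm_num)
  · rw [im_d]; exact hm 1 (by norm_num)
  · rw [im_e]; exact hm 2 (by norm_num)
  · rw [im_f]; exact hm 3 (by norm_num)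
  · rw [im_g]; exact hm 4 (by norm_num)
  · rw [im_h]; exact hm 5 (by norm_num)
  · rw [im_i]; exact hm 6 (by norm_num)
  · rw [im_u]
    have h1 := relOK_spec nets_ok FiP.sep_ok relV_ok
    rw [ev_append, ev, ev, one_mul, show (47 : ℕ) = 2 * 23 + 1 from rfl, lt_odd, inv_mul_eq_one] at h1
    rw [h1]
    exact ev_mem_Kd Y Wu Wu_let

theorem K_map : K.map FiP.rho = H0 := le_antisymm K_le_H0 H0_le_K

theorem card_K : Nat.card K = 18393661440 := by
  have h1 := Subgroup.card_mul_index K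
  have h2 : K.index = 3510 := Cfsg.Agent.S1687.result.1
  have h3 : Nat.card Fi22 = 64561751654400 := Cfsg.Agent.S1696.result.2
  rw [h2, h3] at h1
  exact Nat.eq_of_mul_eq_mul_right (by norm_num : 0 < 3510) (h1.trans (by norm_num))

/-- the isomorphism with the permutation group. -/
noncomputable def eK : K ≃* H0 :=
  (Subgroup.equivMapOfInjective K FiP.rho FiP.rho_inj).trans (MulEquiv.subgroupCongr K_map)

theorem card_H0 : Nat.card H0 = 18393661440 := by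
  rw [← Nat.card_congr eK.toEquiv, card_K]

theorem ev_winv {Γ : Type*} [Group Γ] (Z : List Γ) (W : List ℕ) : ev Z (W.map fp).reverse = (ev Z W)⁻¹ := by
  induction W with
  | nil => simp [ev]
  | cons l r ih => rw [List.map_cons, List.reverse_cons, ev_append, ih, ev, ev, one_mul, lt_fp, ev, mul_inv_rev]

theorem Wc_eq : Wc = (Wx.map fp).reverse ++ ((Wy.map fp).reverse ++ (Wx ++ (Wy ++ [45]))) := by decide +kernel

theorem comm_eq : ⁅ev Y Wy, ev Y Wx⁆ = ev Y [44] := by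
  have h1 := relOK_spec nets_ok FiP.sep_ok relC_ok
  rw [Wc_eq, ev_append, ev_append, ev_append, ev_append, ev_winv, ev_winv, ev, ev, one_mul,
    show (45 : ℕ) = 2 * 22 + 1 from rfl, lt_odd] at h1
  rw [ev, ev, one_mul, show (44 : ℕ) = 2 * 22 from rfl, lt_even, commutatorElement_def]
  have h2 : (Y.getD 22 1)⁻¹ * (ev Y Wy * ev Y Wx * (ev Y Wy)⁻¹ * (ev Y Wx)⁻¹) = 1 := by
    simpa only [mul_assoc] using h1
  exact (inv_mul_eq_one.1 h2).symm

theorem z_ne : ev Y [44] ≠ 1 := by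
  intro h
  have h1 := ev_apply nets_ok [44] (⟨1, by norm_num⟩ : Fin 3510)
  rw [mapsOK_spec nets_ok mapsZ] at h1
  have h2 : ev (gens 3510 nets) [44] = 1 := h
  rw [h2] at h1
  simp at h1

theorem noncomm_perm : ∃ a b : Kd U62.Yp 23 0, a * b ≠ b * a := by
  by_contra h
  push Not at h
  let _ : CommGroup (Kd U62.Yp 23 0) := { (inferInstance : Group (Kd U62.Yp 23 0)) with mul_comm := h }
  have hf : Finite (Kd U62.Yp 23 0) := Nat.finite_of_card_ne_zero (by rw [U62.card_perm]; norm_num)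
  have hp := IsSimpleGroup.prime_card (α := Kd U62.Yp 23 0)
  rw [U62.card_perm] at hp
  norm_num at hp

theorem Wx_let : ∀ l ∈ Wx, 2 * 0 ≤ l ∧ l < 2 * 23 := by decide
theorem Wy_let : ∀ l ∈ Wy, 2 * 0 ≤ l ∧ l < 2 * 23 := by decide

theorem sub_comm {G : Type*} [Group G] (H : Subgroup G) {x y z : G} (hx : x ∈ H) (hy : y ∈ H) (hz : z ∈ H)
    (h : ⁅x, y⁆ = z) : ⁅(⟨x, hx⟩ : H), (⟨y, hy⟩ : H)⁆ = (⟨z, hz⟩ : H) := Subtype.ext h

/-- **The subgroup is a non-split double cover of `PSU(6,2)`.** -/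
theorem main : Cfsg.IsNonsplitDoubleCover K (Cfsg.PSU 6 F4c 2) := by
  obtain ⟨φ, hφ, hW⟩ := U62.abs_cover Y relS card_H0
  obtain ⟨f⟩ := U62.mat_iso
  have hfin : Finite K := Nat.finite_of_card_ne_zero (by rw [card_K]; norm_num)
  have hx : ev Y Wx ∈ H0 := ev_mem_Kd Y Wx Wx_let
  have hy : ev Y Wy ∈ H0 := ev_mem_Kd Y Wy Wy_let
  have hz : ev Y [44] ∈ H0 := ev_mem_Kd Y [44] (by decide)
  have hc : ⁅(⟨ev Y Wy, hy⟩ : H0), (⟨ev Y Wx, hx⟩ : H0)⁆ = (⟨ev Y [44], hz⟩ : H0) := sub_comm _ hy hx hz comm_eq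
  have hc' : eK ⁅eK.symm (⟨ev Y Wy, hy⟩ : H0), eK.symm (⟨ev Y Wx, hx⟩ : H0)⁆ = (⟨ev Y [44], hz⟩ : H0) := by
    rw [map_commutatorElement, MulEquiv.apply_symm_apply, MulEquiv.apply_symm_apply, hc]
  refine dc_of_hom noncomm_perm (φ.comp eK.toMonoidHom) (hφ.comp eK.surjective)
    (by rw [card_K, U62.card_perm]) (eK.symm ⟨ev Y Wy, hy⟩) (eK.symm ⟨ev Y Wx, hx⟩) ?_ ?_ f.symm
  · show φ (eK _) = 1
    rw [hc']
    apply Subtype.ext
    rw [hW [44] (by decide) hz]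
    exact relOK_spec U62.nets_ok U62.sep_ok U62.z_ok
  · intro h
    rw [h, map_one] at hc'
    exact z_ne (congrArg Subtype.val hc').symm

end Cfsg.Agent.Lib.Helper88.FiU
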