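import Cfsg.Agent.Lib.Helper88.G24Data

set_option autoImplicit false
set_option maxRecDepth 1000000
set_option maxHeartbeats 0

namespace Cfsg.Agent.Lib.Helper88.G24
open TC

noncomputable def st3 : List (ℕ × ℕ × List ℕ) := parse (unpI 256 [0x480080700000380101e00000280080700000480081f00000180080700000180101e00000280101d00000380080700000380c00000000280c00000000180a000])

theorem par3 : parOK 5 31 10 12 rels = true := by decide +kernel

theorem fin3 : finOK 5 31 13 10 4 (run 5 31 13 10 rels st3 (initS 5 13 12)) = true := by
  decide +kernel

theorem fix3 : fixOK nets 13 12 3 = true := by decide +kernel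

theorem orb3 : Nat.ble 4 (cnt 416 (orb nets (lets 13 10) [20,20,22] 3)) = true := by decide +kernel

end Cfsg.Agent.Lib.Helper88.G24
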