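import Cfsg.Agent.Lib.Helper88.G24Data

set_option autoImplicit false
set_option maxRecDepth 1000000
set_option maxHeartbeats 0

namespace Cfsg.Agent.Lib.Helper88.G24
open TC

noncomputable def st4 : List (ℕ × ℕ × List ℕ) := parse (unpI 256 [0x380081d00000180c80000000180c000])

theorem par4 : parOK 5 31 12 13 rels = true := by decide +kernel

theorem fin4 : finOK 5 31 13 12 3 (run 5 31 13 12 rels st4 (initS 5 13 13)) = true := by
  decide +kernel

theorem fix4 : fixOK nets 13 13 10 = true := by decide +kernel

theorem orb4 : Nat.ble 3 (cnt 416 (orb nets (lets 13 12) [24,24] 10)) = true := by decide +kernel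

end Cfsg.Agent.Lib.Helper88.G24
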