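import Cfsg.Agent.Lib.Helper88.G24Data

set_option autoImplicit false
set_option maxRecDepth 1000000
set_option maxHeartbeats 0

namespace Cfsg.Agent.Lib.Helper88.G24
open TC

def pd : PD := [
  ([0], 17, [12,14,16,18,20,14,12,18,16,14,12,16], [0,13,15,17,0,19,21,17,15,13,17,19,13,0]),
  ([10,8], 178, [14,16,18,14,22,16,14,12,14], [0,13,15,17,23,13,19,17,0,15,17,13,19,17])]

def Zs : List (List ℕ) := [
  [0,8,17],
  [6,22,15],
  [6,3,15],
  [0,8,17],
  [0,2,18],
  [0,3,14],
  [6,22,15],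
  [17,7,8],
  [18,9,2],
  [6,22,15],
  [0,8,17],
  [16,8,21],
  [18,15,9]]

theorem tr_ok : Nat.beq (orb nets (lets 13 0) [0,6,8,10,14,2,16,0,18,10,14,4] 0) (fullN 416) = true := by decide +kernel

theorem prim_ok : primOK nets 416 13 6 0 pd = true := by decide +kernel

theorem simp_ok : simpOK nets Bs 13 13 Zs = true := by decide +kernel

end Cfsg.Agent.Lib.Helper88.G24
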