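import Cfsg.Agent.Lib.Helper88.TCRigid
import Cfsg.Agent.Lib.Helper88.G24Rel0
import Cfsg.Agent.Lib.Helper88.G24L0
import Cfsg.Agent.Lib.Helper88.G24L1
import Cfsg.Agent.Lib.Helper88.G24L2
import Cfsg.Agent.Lib.Helper88.G24L3
import Cfsg.Agent.Lib.Helper88.G24L4
import Cfsg.Agent.Lib.Helper88.G24Simp

/-!
The simple group `G2(4)` as a permutation group of degree 416, and the fact that the relators `G24.rels` on thirteen
generators define it: every group generated by thirteen elements satisfying the relators is trivial or isomorphic to the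
permutation group.
-/

set_option autoImplicit false

namespace Cfsg.Agent.Lib.Helper88.G24
open TC

/-- the thirteen generating permutations. -/
noncomputable abbrev Yp : List (Equiv.Perm (Fin 416)) := gens 416 nets

theorem rels_perm : ∀ W ∈ rels, ev Yp W = 1 := fun W hW => relsOK_spec nets_ok sep_ok rel_ok W hW

theorem card_perm : Nat.card (Kd Yp 13 0) = 251596800 := by
  have c0 := level_eq' nets_ok rels_perm par0 fin0 (b := ⟨0, by norm_num⟩) fix0 orb0
  have c1 := level_eq' nets_ok rels_perm par1 fin1 (b := ⟨1, by norm_num⟩) fix1 orb1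
  have c2 := level_eq' nets_ok rels_perm par2 fin2 (b := ⟨2, by norm_num⟩) fix2 orb2
  have c3 := level_eq' nets_ok rels_perm par3 fin3 (b := ⟨3, by norm_num⟩) fix3 orb3
  have c4 := level_eq' nets_ok rels_perm par4 fin4 (b := ⟨10, by norm_num⟩) fix4 orb4
  rw [card_Kd_self] at c4
  rw [c4] at c3
  rw [c3] at c2
  rw [c2] at c1
  rw [c1] at c0
  rw [c0]

instance simple_perm : IsSimpleGroup (Kd Yp 13 0) := by
  have : Fact (Nat.Prime 13) := ⟨by norm_num⟩
  exact TC.simple_perm nets_ok sep_ok (b := ⟨0, by norm_num⟩) fix0 tr_ok prim_ok (p := 13) (by norm_num)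
    (by rw [card_perm]; norm_num) (by rw [card_perm]; norm_num) simp_ok

theorem rels_let : ∀ W ∈ rels, ∀ l ∈ W, l < 2 * 13 := by decide +kernel

/-- the relators bound the order in every group. -/
theorem card_le_abs {Γ : Type*} [Group Γ] (Y : List Γ) (h : ∀ W ∈ rels, ev Y W = 1) :
    Finite (Kd Y 13 0) ∧ Nat.card (Kd Y 13 0) ≤ 251596800 := by
  have f13 : Finite (Kd Y 13 13) := by rw [Kd_self]; infer_instance
  obtain ⟨f4, c4⟩ := level_le h par4 fin4
  obtain ⟨f3, c3⟩ := level_le h par3 fin3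
  obtain ⟨f2, c2⟩ := level_le h par2 fin2
  obtain ⟨f1, c1⟩ := level_le h par1 fin1
  obtain ⟨f0, c0⟩ := level_le h par0 fin0
  rw [card_Kd_self] at c4
  refine ⟨f0, ?_⟩
  omega

/-- **The relators define `G2(4)`.** -/
theorem abs_iso {Γ : Type*} [Group Γ] (Y : List Γ) (h : ∀ W ∈ rels, ev Y W = 1) [Nontrivial (Kd Y 13 0)] :
    Nonempty (Kd Yp 13 0 ≃* Kd Y 13 0) := by
  have hz : ∀ W ∈ rels, ev (zipY Y Yp 13) W = 1 := by
    intro W hW
    rw [ev_zipY _ _ W (rels_let W hW), h W hW, rels_perm W hW]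
    rfl
  obtain ⟨hf, hc⟩ := card_le_abs _ hz
  exact rigid Y Yp card_perm hf hc

theorem abs_simple {Γ : Type*} [Group Γ] (Y : List Γ) (h : ∀ W ∈ rels, ev Y W = 1) [Nontrivial (Kd Y 13 0)] :
    IsSimpleGroup (Kd Y 13 0) ∧ Nat.card (Kd Y 13 0) = 251596800 := by
  obtain ⟨e⟩ := abs_iso Y h
  exact ⟨e.symm.isSimpleGroup, by rw [← Nat.card_congr e.toEquiv, card_perm]⟩

end Cfsg.Agent.Lib.Helper88.G24
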