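import Cfsg.Agent.Lib.Helper88.G24Mat

set_option autoImplicit false
set_option maxRecDepth 100000

namespace Cfsg.Agent.Lib.Helper88.G24
open TC MC4

theorem rels_code8 : relsC 14 eC eC eC LC rels8 = true := by decide +kernel

theorem rels_code9 : relsC 14 eC eC eC LC rels9 = true := by decide +kernel

theorem rels_code10 : relsC 14 eC eC eC LC rels10 = true := by decide +kernel

theorem rels_code11 : relsC 14 eC eC eC LC rels11 = true := by decide +kernel

end Cfsg.Agent.Lib.Helper88.G24
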