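import Cfsg.Agent.Lib.Helper88.G24MatR0
import Cfsg.Agent.Lib.Helper88.G24MatR1
import Cfsg.Agent.Lib.Helper88.G24MatR2
import Cfsg.Agent.Lib.Helper88.G24MatR3
import Cfsg.Agent.Lib.Helper88.G24Abs
import Cfsg.Agent.Lib.Helper88.G24Root

/-!
The Chevalley group `G2(4)` over the concrete field with four elements is isomorphic to the permutation group of degree
416 of `G24Abs`.
-/

set_option autoImplicit false
set_option maxRecDepth 100000

namespace Cfsg.Agent.Lib.Helper88.G24
open TC MC4 Matrix Cfsg.Agent.Lib.Helper34 Cfsg.Lie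

theorem chunks_code : ∀ R ∈ chunks, relsC 14 eC eC eC LC R = true := by
  intro R hR
  simp only [chunks, List.mem_cons, List.not_mem_nil, or_false] at hR
  rcases hR with rfl | rfl | rfl | rfl | rfl | rfl | rfl | rfl | rfl | rfl | rfl | rfl | rfl | rfl | rfl | rfl | rfl
  · exact rels_code0
  · exact rels_code1
  · exact rels_code2
  · exact rels_code3
  · exact rels_code4
  · exact rels_code5
  · exact rels_code6
  · exact rels_code7
  · exact rels_code8
  · exact rels_code9
  · exact rels_code10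
  · exact rels_code11
  · exact rels_code12
  · exact rels_code13
  · exact rels_code14
  · exact rels_code15
  · exact rels_code16

theorem rels_code : ∀ W ∈ rels, evC 14 eC LC W = eC := by
  intro W hW
  rw [rels_eq] at hW
  obtain ⟨R, hR, hm⟩ := List.mem_flatten.1 hW
  rcases relsC_spec (chunks_code R hR) W hm with h | h | h <;> exact h

theorem rels_mat : ∀ W ∈ rels, ev Ym W = 1 := by
  intro W hW
  apply Units.ext
  rw [ev_Ym W (fun l hl => by have := rels_let W hW l hl; omega), rels_code W hW, M_one]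
  rfl

theorem defs_let40 : ∀ k < 13, ∀ l ∈ nth [] defs k ++ [2 * k + 1], l < 40 := by decide +kernel

theorem defs_mat : ∀ k < 13, ev Ym (nth [] defs k ++ [2 * k + 1]) = 1 := by
  intro k hk
  apply Units.ext
  rw [ev_Ym _ (defs_let40 k hk), defs_code k hk, M_one]
  rfl

theorem root_mem : ∀ k, 13 ≤ k → k < 20 → Ym.getD k 1 ∈ chevG2.group F4c := by
  intro k h1 h2
  interval_cases k
  · exact Subgroup.subset_closure ⟨⟨11, by decide⟩, F4c.ofN 1, by rw [Ym_coe (by norm_num)]; exact root0⟩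
  · exact Subgroup.subset_closure ⟨⟨11, by decide⟩, F4c.ofN 2, by rw [Ym_coe (by norm_num)]; exact root1⟩
  · exact Subgroup.subset_closure ⟨⟨11, by decide⟩, F4c.ofN 3, by rw [Ym_coe (by norm_num)]; exact root2⟩
  · exact Subgroup.subset_closure ⟨⟨0, by decide⟩, F4c.ofN 1, by rw [Ym_coe (by norm_num)]; exact root3⟩
  · exact Subgroup.subset_closure ⟨⟨1, by decide⟩, F4c.ofN 2, by rw [Ym_coe (by norm_num)]; exact root4⟩
  · exact Subgroup.subset_closure ⟨⟨5, by decide⟩, F4c.ofN 2, by rw [Ym_coe (by norm_num)]; exact root5⟩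
  · exact Subgroup.subset_closure ⟨⟨7, by decide⟩, F4c.ofN 1, by rw [Ym_coe (by norm_num)]; exact root6⟩

theorem Ym_mem : ∀ k < 13, Ym.getD k 1 ∈ chevG2.group F4c :=
  memOfDefs Ym _ 13 20 defs root_mem defs_mat defs_let

theorem Kd_le : Kd Ym 13 0 ≤ chevG2.group F4c := by
  rw [Kd, Subgroup.closure_le]
  rintro g ⟨k, _, h2, rfl⟩
  exact Ym_mem k h2

theorem ne_code : M (nth 0 LC 0) ≠ M eC := by decide +kernel

instance nontrivial_mat : Nontrivial (Kd Ym 13 0) := by
  refine ⟨⟨⟨Ym.getD 0 1, getD_mem_Kd Ym (le_refl 0) (by norm_num)⟩, 1, ?_⟩⟩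
  intro h
  have h1 : Ym.getD 0 1 = 1 := congrArg Subtype.val h
  have h2 := Ym_coe (k := 0) (by norm_num)
  rw [h1] at h2
  apply ne_code
  rw [← h2, M_one]
  rfl

theorem Kd_eq : Kd Ym 13 0 = chevG2.group F4c := le_antisymm Kd_le group_le

/-- the permutation group of degree 416 is `G2(4)`. -/
theorem mat_iso : Nonempty (Kd Yp 13 0 ≃* chevG2.group F4c) := by
  obtain ⟨e⟩ := abs_iso Ym rels_mat
  exact ⟨e.trans (MulEquiv.subgroupCongr Kd_eq)⟩

end Cfsg.Agent.Lib.Helper88.G24
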