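import Cfsg.Agent.Lib.Helper88.J3Data

set_option autoImplicit false
set_option maxRecDepth 1000000
set_option maxHeartbeats 0

namespace Cfsg.Agent.Lib.Helper88.J3
open TC

noncomputable def st2 : List (ℕ × ℕ × List ℕ) := parse (unpI 256 [0x5800806000004000006800806000003800805000003000002000001800804000003000002804000000001804000000001803800000001803000])

theorem par2 : parOK 6 63 3 5 rels = true := by decide +kernel

theorem fin2 : finOK 6 63 5 3 6 (run 6 63 5 3 rels st2 (initS 6 5 5)) = true := by
  decide +kernel

theorem fix2 : fixOK nets 5 5 2 = true := by decide +kernel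

theorem orb2 : Nat.ble 6 (cnt 6156 (orb nets (lets 5 3) [6,8,6] 2)) = true := by decide +kernel

end Cfsg.Agent.Lib.Helper88.J3
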