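import Cfsg.Agent.Lib.Helper88.J3Data

set_option autoImplicit false
set_option maxRecDepth 1000000
set_option maxHeartbeats 0

namespace Cfsg.Agent.Lib.Helper88.J3
open TC

def pd : PD := [
  ([0,8,0], 2998, [2,4,6,8,2,4,6,4,8,2,4,6,4,8,2], [0,3,5,7,9,3,5,7,5,9,3,5,7,0,9,5,7,3,5,7]),
  ([0,5,0,4,0], 47, [2,4,6,8,2,4,6,8,4,6,2,4,8,6,2,4], [0,3,5,7,9,3,5,7,9,5,7,3,5,9,0,3,9,5,7,5]),
  ([0,2,0], 1797, [2,4,6,8,2,4,6,8,4,6,4,8,4,2], [0,3,5,7,9,3,5,7,9,5,7,5,0,9,7,3,5,7,5,9]),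
  ([0,6,0,8,0], 568, [2,4,6,8,2,4,6,8,4,2,6,8,4], [0,3,5,7,9,5,3,7,9,5,7,3,0,5,3,7,5,9,5,3,5]),
  ([0,5,0], 450, [2,4,6,8,2,4,6,8,4,6,2,4,8,6,2], [0,3,5,7,9,3,5,7,9,5,3,7,5,0,9,5,7,3,5,9]),
  ([0], 37, [2,4,6,2,4,6,8,2,4,4], [0,3,5,7,0,3,5,7,0,9,5,3,7,0,5,7,3,0,3]),
  ([0,5,0,8,0], 4832, [2,6,8,4,2,6,4,8,2,4], [0,3,5,7,9,3,5,9,3,0,7,3,5,7,9,5,3,7,0,9,3])]

def Zs : List (List ℕ) := [
  [6,0,6],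
  [0,2,4,4],
  [2,0,4,8],
  [0,6],
  [0,4,8,2]]

theorem tr_ok : Nat.beq (orb nets (lets 5 0) [0,2,4,6,0,2,4,6,0,8,4,2,6,0,4,6,2,0,2] 0) (fullN 6156) = true := by decide +kernel

theorem prim_ok : primOK nets 6156 5 1 0 pd = true := by decide +kernel

theorem simp_ok : simpOK nets Bs 5 19 Zs = true := by decide +kernel

end Cfsg.Agent.Lib.Helper88.J3
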