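import Mathlib
import Cfsg.Prelude.Def_Sporadic_a
import Cfsg.Agent.Lib.Helper58.PGroup
import Cfsg.Agent.Lib.Helper88.MChain
import Cfsg.Agent.Lib.Helper88.CritDef

/-!
From kernel-checkable certificates to the group-level criterion `Crit` for subgroups of the group of the
length 24 code.
-/

set_option autoImplicit false
open scoped Pointwise

namespace Cfsg.Agent.Lib.Helper88
open Cfsg.Agent.Lib.Helper94

/-- the rows of the three blocks of the table are contained in the canonical relations. -/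
noncomputable def rel1OK (T : ℕ) (L : List ℕ) : Bool :=
  L.all fun c => Nat.beq (Nat.lor (relErr T 0 (fx0 c) (fx4 c))
    (Nat.lor (relErr T 1 (fixMask c) (fixMask c)) (relErr T 2 (fx2 c) (fx2 c)))) 0

/-- the canonical relation is contained in the rows of block `k`, as witnessed by the elements of `W`. -/
noncomputable def rel2OK (T k : ℕ) (fi fj : ℕ → ℕ) (W : List ℕ) : Bool :=
  (List.range 24).all fun x => (List.range 24).all fun y =>
    (row T (24 * k + x)).testBit y || W.any fun w => (fi w).testBit x && !(fj w).testBit y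

theorem rel2OK_spec {T k : ℕ} {fi fj : ℕ → ℕ} {W : List ℕ} (h : rel2OK T k fi fj W = true) :
    ∀ x < 24, ∀ y < 24, (row T (24 * k + x)).testBit y = false →
      ∃ w ∈ W, (fi w).testBit x = true ∧ (fj w).testBit y = false := by
  intro x hx y hy hr
  rw [rel2OK, List.all_eq_true] at h
  have h1 := h x (List.mem_range.2 hx)
  rw [List.all_eq_true] at h1
  have h2 := h1 y (List.mem_range.2 hy)
  rw [hr, Bool.false_or, List.any_eq_true] at h2
  obtain ⟨w, hw, h3⟩ := h2
  rw [Bool.and_eq_true, Bool.not_eq_true'] at h3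
  exact ⟨w, hw, h3⟩

/-- every entry has order dividing 8. -/
noncomputable def powOK (L : List ℕ) : Bool :=
  L.all fun c => Nat.beq (mulM (mulM (mulM c c) (mulM c c)) (mulM (mulM c c) (mulM c c))) idM

/-- an entry commuting with all members of `C` is the identity or `z`. -/
noncomputable def centOK (L C : List ℕ) (z : ℕ) : Bool :=
  L.all fun c => !(C.all fun s => Nat.beq (mulM c s) (mulM s c)) || Nat.beq c idM || Nat.beq c z

/-- a derivation step `(g, a, b)`: for `g = 0` the product of the entries number `a` and `b`, otherwise the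
conjugate of the entry number `a` under the element with code `g`. -/
noncomputable def dstep (T F0 D F1 : ℕ) (st : List ℕ) (s : ℕ × ℕ × ℕ) : List ℕ :=
  if s.1 = 0 then st ++ [mulM (st.getD s.2.1 idM) (st.getD s.2.2 idM)]
  else if inGG F1 D s.1 && inKK T 3 F0 D (mulM (mulM s.1 (st.getD s.2.1 idM)) (invM s.1)) then
    st ++ [mulM (mulM s.1 (st.getD s.2.1 idM)) (invM s.1)]
  else st

noncomputable def derive (T F0 D F1 : ℕ) (steps : List (ℕ × ℕ × ℕ)) (st : List ℕ) : List ℕ :=
  steps.foldl (dstep T F0 D F1) st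

theorem rep_getD {X : Subgroup (Equiv.Perm GolayPt)} {st : List ℕ} (h : ∀ c ∈ st, Rep X c) (i : ℕ) :
    Rep X (st.getD i idM) := by
  by_cases hi : i < st.length
  · rw [List.getD_eq_getElem _ _ hi]
    exact h _ (List.getElem_mem hi)
  · rw [List.getD_eq_default _ _ (not_lt.1 hi)]
    exact Rep.one X

theorem rep_dstep {T F0 D F1 : ℕ} (hD : D < 2 ^ 24) {X : Subgroup (Equiv.Perm GolayPt)}
    (hX : ∀ t ∈ X, ∀ g ∈ GG F1 D, g * t * g⁻¹ ∈ KK T 3 F0 D → g * t * g⁻¹ ∈ X)
    {st : List ℕ} (h : ∀ c ∈ st, Rep X c) (s : ℕ × ℕ × ℕ) : ∀ c ∈ dstep T F0 D F1 st s, Rep X c := by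
  intro c hc
  rw [dstep] at hc
  split at hc
  · rw [List.mem_append, List.mem_singleton] at hc
    rcases hc with hc | hc
    · exact h c hc
    · rw [hc]; exact (rep_getD h _).mul (rep_getD h _)
  · split at hc
    · next hcond =>
      rw [List.mem_append, List.mem_singleton] at hc
      rcases hc with hc | hc
      · exact h c hc
      · rw [hc]
        rw [Bool.and_eq_true] at hcond
        obtain ⟨h1, h2⟩ := hcond
        obtain ⟨g, hgc⟩ := exists_code_of_inGG h1
        obtain ⟨t, ht, htc⟩ := rep_getD h s.2.1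
        rw [← hgc] at h1
        have hg := mem_GG_of_inGG hD h1
        have h3 := rep_KK_of_inKK hD h2
        rw [← hgc, ← htc, ← code_mul, ← code_inv, ← code_mul] at h3 ⊢
        rw [rep_code_iff] at h3 ⊢
        exact hX t ht g hg h3
    · exact h c hc

theorem rep_derive {T F0 D F1 : ℕ} (hD : D < 2 ^ 24) {X : Subgroup (Equiv.Perm GolayPt)}
    (hX : ∀ t ∈ X, ∀ g ∈ GG F1 D, g * t * g⁻¹ ∈ KK T 3 F0 D → g * t * g⁻¹ ∈ X)
    (steps : List (ℕ × ℕ × ℕ)) : ∀ st : List ℕ, (∀ c ∈ st, Rep X c) →
      ∀ c ∈ derive T F0 D F1 steps st, Rep X c := by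
  induction steps with
  | nil => intro st h; exact h
  | cons s r ih =>
    intro st h
    rw [derive, List.foldl_cons]
    exact ih _ (rep_dstep hD hX h s)

/-- all the generators of the chain are derived from `z`. -/
noncomputable def deriveOK (T F0 D F1 z : ℕ) (steps : List (ℕ × ℕ × ℕ)) (lvs : List Lev) : Bool :=
  (gensOf lvs).all fun v => (derive T F0 D F1 steps [z]).any (Nat.beq v)

/-- block `0` of the table is constant. -/
noncomputable def constOK (T : ℕ) : Bool := (List.range 24).all fun x => Nat.beq (row T x) (row T 0)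

theorem master {T F0 D F1 z : ℕ} {Lo fin W C : List ℕ} {lvs : List Lev} {steps : List (ℕ × ℕ × ℕ)}
    (hD : D < 2 ^ 24)
    (hconst : constOK T = true)
    (hchain : chainOK T 3 F0 D [row T 0, D] Lo fin F0 lvs = true)
    (hsmall : (gensOf lvs).all (inGG F1 D) = true)
    (hW : W.all (inKK T 3 F0 D) = true)
    (hrel1 : rel1OK T (listOf lvs) = true)
    (hrel20 : rel2OK T 0 fx0 fx4 W = true)
    (hrel21 : rel2OK T 1 fixMask fixMask W = true)
    (hrel22 : rel2OK T 2 fx2 fx2 W = true)
    (hpow : powOK (listOf lvs) = true)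
    (hC : C.all (inKK T 3 F0 D) = true)
    (hcent : centOK (listOf lvs) C z = true)
    (hz : (inKK T 3 F0 D z && !Nat.beq z idM) = true)
    (hder : deriveOK T F0 D F1 z steps lvs = true)
    {G : Subgroup (Equiv.Perm GolayPt)} (hG1 : GG F1 D ≤ G) (hG0 : G ≤ GG F0 D) :
    Crit G (KK T 3 F0 D) := by
  have hE : ∀ g ∈ KK T 3 F0 D, ∀ m ∈ [row T 0, D], Helper94.Inv g m := by
    intro g hg m hm
    simp only [List.mem_cons, List.not_mem_nil, or_false] at hm
    rcases hm with rfl | rfl
    · apply inv_const (Subgroup.mem_inf.1 hg).2 (k := 0) (by norm_num)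
      intro x hx
      rw [constOK, List.all_eq_true] at hconst
      have := hconst x (List.mem_range.2 hx)
      rw [Nat.beq_eq] at this
      simpa using this
    · exact (mem_GG.1 (Subgroup.mem_inf.1 hg).1).2.2
  have henum : ∀ g ∈ KK T 3 F0 D, code g ∈ listOf lvs := fun g hg =>
    chain_enum hD hE lvs F0 hchain g hg (mem_GG.1 (Subgroup.mem_inf.1 hg).1).2.1
  have hgens : ∀ v ∈ gensOf lvs, Rep (KK T 3 F0 D) v := chain_gens hD lvs F0 hchain
  have hrepW : ∀ w ∈ W, Rep (KK T 3 F0 D) w := fun w hw =>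
    rep_KK_of_inKK hD ((List.all_eq_true.1 hW) w hw)
  have hrepC : ∀ w ∈ C, Rep (KK T 3 F0 D) w := fun w hw =>
    rep_KK_of_inKK hD ((List.all_eq_true.1 hC) w hw)
  have hKsmall : KK T 3 F0 D ≤ GG F1 D := by
    intro g hg
    have h1 : ∀ v ∈ gensOf lvs, Rep (GG F1 D) v := by
      intro v hv
      have h2 := (List.all_eq_true.1 hsmall) v hv
      obtain ⟨u, rfl⟩ := exists_code_of_inGG h2
      exact ⟨u, mem_GG_of_inGG hD h2, rfl⟩
    exact rep_code_iff.1 (rep_listOf lvs h1 _ (henum g hg))
  have hrel1' : ∀ c ∈ listOf lvs, relErr T 0 (fx0 c) (fx4 c) = 0 ∧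
      relErr T 1 (fixMask c) (fixMask c) = 0 ∧ relErr T 2 (fx2 c) (fx2 c) = 0 := by
    intro c hc
    have := (List.all_eq_true.1 hrel1) c hc
    simpa only [Nat.beq_eq, Nat.lor_eq, Nat.or_eq_zero_iff] using this
  have hp8 : ∀ g ∈ KK T 3 F0 D, g ^ 8 = 1 := by
    intro g hg
    have := (List.all_eq_true.1 hpow) _ (henum g hg)
    rw [Nat.beq_eq, ← code_mul, ← code_mul, ← code_mul, ← code_one] at this
    have h2 := code_injective this
    rw [← h2, show (8 : ℕ) = 2 + 2 + (2 + 2) from rfl, pow_add, pow_add, pow_two]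
  have hpg : IsPGroup 2 (KK T 3 F0 D) := by
    intro g
    refine ⟨3, ?_⟩
    apply Subtype.ext
    simpa using hp8 g.1 g.2
  rw [Bool.and_eq_true, Bool.not_eq_true'] at hz
  have hzne : z ≠ idM := Nat.ne_of_beq_eq_false hz.2
  obtain ⟨zz, hzz, hzc⟩ := rep_KK_of_inKK hD hz.1
  refine ⟨hKsmall.trans hG1, hpg, ?_, ?_, ?_⟩
  · intro hbot
    rw [hbot, Subgroup.mem_bot] at hzz
    rw [hzz, code_one] at hzc
    exact hzne hzc.symm
  · intro g hg hn
    refine Subgroup.mem_inf.2 ⟨hG0 hg, mem_AutT_of_normalizes ?_ hn⟩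
    intro k hk
    have hk' : k = 0 ∨ k = 1 ∨ k = 2 := by omega
    rcases hk' with rfl | rfl | rfl
    · exact ⟨0, 4, relOK_of_checks fx0 fx4 fx0_spec fx4_spec henum hrepW
        (fun c hc => (hrel1' c hc).1) (rel2OK_spec hrel20)⟩
    · exact ⟨1, 1, relOK_of_checks fixMask fixMask fx1_spec fx1_spec henum hrepW
        (fun c hc => (hrel1' c hc).2.1) (rel2OK_spec hrel21)⟩
    · exact ⟨2, 2, relOK_of_checks fx2 fx2 fx2_spec fx2_spec henum hrepW
        (fun c hc => (hrel1' c hc).2.2) (rel2OK_spec hrel22)⟩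
  · intro X hXle hXne hX
    -- the central involution lies in `X`
    have hnorm : (X.subgroupOf (KK T 3 F0 D)).Normal := by
      constructor
      intro n hn k
      rw [Subgroup.mem_subgroupOf] at hn ⊢
      have hmem : (k : Equiv.Perm GolayPt) * n * (k : Equiv.Perm GolayPt)⁻¹ ∈ KK T 3 F0 D :=
        (KK T 3 F0 D).mul_mem ((KK T 3 F0 D).mul_mem k.2 n.2) ((KK T 3 F0 D).inv_mem k.2)
      exact hX _ hn _ (hG1 (hKsmall k.2)) hmem
    have hne : X.subgroupOf (KK T 3 F0 D) ≠ ⊥ := by
      intro hb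
      apply hXne
      rw [Subgroup.subgroupOf_eq_bot] at hb
      rw [eq_bot_iff]
      have := hb.le_bot
      intro x hx
      exact this ⟨hx, hXle hx⟩
    have : Fact (Nat.Prime 2) := ⟨Nat.prime_two⟩
    have hcen := Cfsg.Agent.Lib.Helper58.normal_inf_center_ne_bot hpg (X.subgroupOf (KK T 3 F0 D)) hne
    obtain ⟨⟨y, hy⟩, hy1⟩ := Subgroup.ne_bot_iff_exists_ne_one.1 hcen
    obtain ⟨hyN, hyZ⟩ := Subgroup.mem_inf.1 hy
    rw [Subgroup.mem_subgroupOf] at hyN
    have hy1' : (y : Equiv.Perm GolayPt) ≠ 1 := by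
      intro h
      apply hy1
      apply Subtype.ext
      apply Subtype.ext
      exact h
    have hcomm : ∀ t ∈ KK T 3 F0 D, t * (y : Equiv.Perm GolayPt) = y * t := fun t ht => by
      have := (Subgroup.mem_center_iff.1 hyZ) ⟨t, ht⟩
      exact congrArg Subtype.val this
    have hcode : code (y : Equiv.Perm GolayPt) = z := by
      have h1 := (List.all_eq_true.1 hcent) _ (henum y y.2)
      have h2 : (C.all fun s => Nat.beq (mulM (code (y : Equiv.Perm GolayPt)) s)
          (mulM s (code (y : Equiv.Perm GolayPt)))) = true := by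
        rw [List.all_eq_true]
        intro s hs
        obtain ⟨t, ht, rfl⟩ := hrepC s hs
        rw [Nat.beq_eq, ← code_mul, ← code_mul, hcomm t ht]
      rw [h2] at h1
      simp only [Bool.not_true, Bool.false_or, Bool.or_eq_true, Nat.beq_eq] at h1
      rcases h1 with h1 | h1
      · exfalso
        apply hy1'
        apply code_injective
        rw [h1, code_one]
      · exact h1
    have hzX : Rep X z := ⟨y, hyN, hcode⟩
    have hX' : ∀ t ∈ X, ∀ g ∈ GG F1 D, g * t * g⁻¹ ∈ KK T 3 F0 D → g * t * g⁻¹ ∈ X :=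
      fun t ht g hg => hX t ht g (hG1 hg)
    have hder' := rep_derive hD hX' steps [z] (by
      intro c hc
      rw [List.mem_singleton] at hc
      rw [hc]; exact hzX)
    have hgX : ∀ v ∈ gensOf lvs, Rep X v := by
      intro v hv
      have := (List.all_eq_true.1 hder) v hv
      rw [List.any_eq_true] at this
      obtain ⟨c, hc, hvc⟩ := this
      rw [Nat.beq_eq] at hvc
      rw [hvc]; exact hder' c hc
    apply le_antisymm hXle
    intro g hg
    exact rep_code_iff.1 (rep_listOf lvs hgX _ (henum g hg))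

end Cfsg.Agent.Lib.Helper88
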