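import Cfsg.Agent.Lib.Helper88.TCWord

/-!
Square matrices over `ZMod p` coded by natural numbers (digits in base `B`), with a product which the kernel evaluates
quickly.
-/

set_option autoImplicit false

namespace Cfsg.Agent.Lib.Helper88.MC
open TC

/-- the sum of `f k` for `k < n`. -/
noncomputable def sm (f : ℕ → ℕ) (n : ℕ) : ℕ := Nat.rec 0 (fun k ih => Nat.add ih (f k)) n

theorem sm_eq (f : ℕ → ℕ) (n : ℕ) : sm f n = ∑ k ∈ Finset.range n, f k := by
  induction n with
  | zero => rfl
  | succ m ih => rw [Finset.sum_range_succ, ← ih]; rfl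

/-- the number with the digits `f m, f (m + 1), …` (`n` digits in base `B`). -/
noncomputable def cd (B : ℕ) (f : ℕ → ℕ) (n : ℕ) : ℕ → ℕ :=
  Nat.rec (fun _ => 0) (fun _ ih m => Nat.add (f m % B) (Nat.mul B (ih (m + 1)))) n

theorem cd_succ (B : ℕ) (f : ℕ → ℕ) (n m : ℕ) : cd B f (n + 1) m = f m % B + B * cd B f n (m + 1) := rfl

/-- the digit number `m`. -/
def en (B t m : ℕ) : ℕ := t / B ^ m % B

theorem en_cd {B : ℕ} (hB : 0 < B) (f : ℕ → ℕ) : ∀ n m k, k < n → en B (cd B f n m) k = f (m + k) % B := by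
  intro n
  induction n with
  | zero => intro m k hk; omega
  | succ n ih =>
    intro m k hk
    rw [cd_succ]
    cases k with
    | zero =>
      rw [en, pow_zero, Nat.div_one, Nat.add_mul_mod_self_left, Nat.mod_mod, Nat.add_zero]
    | succ j =>
      have h1 : (f m % B + B * cd B f n (m + 1)) / B = cd B f n (m + 1) := by
        rw [Nat.add_mul_div_left _ _ hB, Nat.div_eq_of_lt (Nat.mod_lt _ hB), Nat.zero_add]
      rw [en, pow_succ', ← Nat.div_div_eq_div_mul, h1]
      have := ih (m + 1) j (by omega)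
      rw [en] at this
      rw [this]
      congr 2
      omega

section
variable (n p B : ℕ)

/-- an entry of the product. -/
noncomputable def pe (s t i j : ℕ) : ℕ := sm (fun k => Nat.mul (en B s (n * i + k)) (en B t (n * k + j))) n

/-- the code of the product. -/
noncomputable def mulC (s t : ℕ) : ℕ := cd B (fun m => pe n B s t (m / n) (m % n) % p) (n * n) 0

variable {ι : Type} [Fintype ι] (idx : ι → ℕ)

/-- the matrix with a given code. -/
def mk (t : ℕ) : Matrix ι ι (ZMod p) := fun i j => ((en B t (n * idx i + idx j) : ℕ) : ZMod p)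

variable {n p B idx}

theorem mk_mulC (hp : 0 < p) (hpB : p ≤ B) (hidx : ∀ i, idx i < n)
    (hsum : ∀ f : ℕ → ZMod p, ∑ k : ι, f (idx k) = ∑ k ∈ Finset.range n, f k) (s t : ℕ) :
    mk n p B idx (mulC n p B s t) = mk n p B idx s * mk n p B idx t := by
  ext i j
  rw [Matrix.mul_apply]
  have h1 : n * idx i + idx j < n * n := by
    have := hidx i
    have := hidx j
    nlinarith
  have h2 : (n * idx i + idx j) / n = idx i := by
    rw [Nat.mul_add_div (by have := hidx i; omega), Nat.div_eq_of_lt (hidx j), Nat.add_zero]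
  have h3 : (n * idx i + idx j) % n = idx j := by
    rw [Nat.mul_add_mod, Nat.mod_eq_of_lt (hidx j)]
  show ((en B (mulC n p B s t) (n * idx i + idx j) : ℕ) : ZMod p) = _
  rw [mulC, en_cd (by omega) _ _ _ _ h1, Nat.zero_add, h2, h3,
    Nat.mod_eq_of_lt (lt_of_lt_of_le (Nat.mod_lt _ hp) hpB), ZMod.natCast_mod, pe, sm_eq, Nat.cast_sum]
  rw [← hsum fun k => ((Nat.mul (en B s (n * idx i + k)) (en B t (n * k + idx j)) : ℕ) : ZMod p)]
  apply Finset.sum_congr rfl
  intro k _
  show ((en B s (n * idx i + idx k) * en B t (n * idx k + idx j) : ℕ) : ZMod p) = _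
  rw [Nat.cast_mul]
  rfl

end

/-- the code of the value of a word; `e` is the code of the identity, `L` the list of the codes of the letters. -/
noncomputable def evC (n p B e : ℕ) (L : List ℕ) (W : List ℕ) : ℕ :=
  List.rec e (fun l _ ih => frc ih fun s => mulC n p B s (nth 0 L l)) W

theorem evC_nil (n p B e : ℕ) (L : List ℕ) : evC n p B e L [] = e := rfl

theorem evC_cons (n p B e : ℕ) (L : List ℕ) (l : ℕ) (r : List ℕ) :
    evC n p B e L (l :: r) = mulC n p B (evC n p B e L r) (nth 0 L l) := by
  show frc (evC n p B e L r) (fun s => mulC n p B s (nth 0 L l)) = _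
  rw [frc_eq]

/-- all the words of a list have the value `e`. -/
noncomputable def relsC (n p B e : ℕ) (L : List ℕ) (rels : List (List ℕ)) : Bool :=
  al (fun W => Nat.beq (evC n p B e L W) e) rels

theorem relsC_spec {n p B e : ℕ} {L : List ℕ} {rels : List (List ℕ)} (h : relsC n p B e L rels = true) :
    ∀ W ∈ rels, evC n p B e L W = e := fun W hW => Nat.eq_of_beq_eq_true (al_spec h W hW)

end Cfsg.Agent.Lib.Helper88.MC
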