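import Cfsg.Agent.Lib.Helper88.MatCode
import Cfsg.Agent.Lib.Helper34.F4c

/-!
Square matrices over the field with four elements coded by natural numbers (two bits for every entry), with a product
which the kernel evaluates quickly.
-/

set_option autoImplicit false

namespace Cfsg.Agent.Lib.Helper88.MC4
open TC MC Cfsg.Agent.Lib.Helper34

/-- the bitwise sum of `f k` for `k < n`. -/
noncomputable def xs (f : ℕ → ℕ) (n : ℕ) : ℕ := Nat.rec 0 (fun k ih => Nat.xor ih (f k)) n

/-- the product of two coded field elements. -/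
def mulF (a b : ℕ) : ℕ := Nat.shiftRight 0x9c78e400 (2 * (4 * a + b)) % 4

theorem ofN_mod (n : ℕ) : F4c.ofN (n % 4) = F4c.ofN n := by
  unfold F4c.ofN
  congr 1
  exact Nat.mod_mod _ _

theorem ofN_xor (a b : ℕ) : F4c.ofN (Nat.xor a b) = F4c.ofN a + F4c.ofN b := by
  show F4c.ofN (a ^^^ b) = F4c.ofN ((a % 4) ^^^ (b % 4))
  rw [← ofN_mod (a ^^^ b)]
  congr 1
  exact Nat.xor_mod_two_pow (n := 2)

theorem ofN_mulF {a b : ℕ} (ha : a < 4) (hb : b < 4) : F4c.ofN (mulF a b) = F4c.ofN a * F4c.ofN b := by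
  interval_cases a <;> interval_cases b <;> rfl

theorem ofN_xs (f : ℕ → ℕ) (n : ℕ) : F4c.ofN (xs f n) = ∑ k ∈ Finset.range n, F4c.ofN (f k) := by
  induction n with
  | zero => rfl
  | succ m ih =>
    rw [Finset.sum_range_succ, ← ih, ← ofN_xor]
    rfl

theorem en_lt (t m : ℕ) : en 4 t m < 4 := Nat.mod_lt _ (by norm_num)

section
variable (n : ℕ)

/-- an entry of the product. -/
noncomputable def pe (s t i j : ℕ) : ℕ := xs (fun k => mulF (en 4 s (n * i + k)) (en 4 t (n * k + j))) n

/-- the code of the product. -/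
noncomputable def mulC (s t : ℕ) : ℕ := cd 4 (fun m => pe n s t (m / n) (m % n)) (n * n) 0

variable {ι : Type} [Fintype ι] (idx : ι → ℕ)

/-- the matrix with a given code. -/
def mk (t : ℕ) : Matrix ι ι F4c := fun i j => F4c.ofN (en 4 t (n * idx i + idx j))

variable {n idx}

theorem mk_mulC (hidx : ∀ i, idx i < n)
    (hsum : ∀ f : ℕ → F4c, ∑ k : ι, f (idx k) = ∑ k ∈ Finset.range n, f k) (s t : ℕ) :
    mk n idx (mulC n s t) = mk n idx s * mk n idx t := by
  ext i j
  rw [Matrix.mul_apply]
  have h1 : n * idx i + idx j < n * n := by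
    have := hidx i
    have := hidx j
    nlinarith
  have h2 : (n * idx i + idx j) / n = idx i := by
    rw [Nat.mul_add_div (by have := hidx i; omega), Nat.div_eq_of_lt (hidx j), Nat.add_zero]
  have h3 : (n * idx i + idx j) % n = idx j := by
    rw [Nat.mul_add_mod, Nat.mod_eq_of_lt (hidx j)]
  show F4c.ofN (en 4 (mulC n s t) (n * idx i + idx j)) = _
  rw [mulC, en_cd (by norm_num) _ _ _ _ h1, Nat.zero_add, h2, h3, ofN_mod, pe, ofN_xs]
  rw [← hsum fun k => F4c.ofN (mulF (en 4 s (n * idx i + k)) (en 4 t (n * k + idx j)))]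
  apply Finset.sum_congr rfl
  intro k _
  rw [ofN_mulF (en_lt _ _) (en_lt _ _)]
  rfl

end

/-- the code of the value of a word; `e` is the code of the identity, `L` the list of the codes of the letters. -/
noncomputable def evC (n e : ℕ) (L : List ℕ) (W : List ℕ) : ℕ :=
  List.rec e (fun l _ ih => frc ih fun s => mulC n s (nth 0 L l)) W

theorem evC_nil (n e : ℕ) (L : List ℕ) : evC n e L [] = e := rfl

theorem evC_cons (n e : ℕ) (L : List ℕ) (l : ℕ) (r : List ℕ) :
    evC n e L (l :: r) = mulC n (evC n e L r) (nth 0 L l) := by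
  show frc (evC n e L r) (fun s => mulC n s (nth 0 L l)) = _
  rw [frc_eq]

/-- all the words of a list have one of the values `e`, `e1`, `e2`. -/
noncomputable def relsC (n e e1 e2 : ℕ) (L : List ℕ) (rels : List (List ℕ)) : Bool :=
  al (fun W => frc (evC n e L W) fun x => Nat.beq x e || Nat.beq x e1 || Nat.beq x e2) rels

theorem relsC_spec {n e e1 e2 : ℕ} {L : List ℕ} {rels : List (List ℕ)} (h : relsC n e e1 e2 L rels = true) :
    ∀ W ∈ rels, evC n e L W = e ∨ evC n e L W = e1 ∨ evC n e L W = e2 := by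
  intro W hW
  have h1 := al_spec h W hW
  rw [frc_eq] at h1
  simp only [Bool.or_eq_true, Nat.beq_eq] at h1
  tauto

end Cfsg.Agent.Lib.Helper88.MC4
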