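import Cfsg.Agent.Lib.Helper88.TCWord

/-!
Square matrices over `ZMod p` given by the list of their rows; a row is a natural number whose digits in base `B` are the
entries.  The product is computed row by row with big-number arithmetic, which the kernel evaluates quickly.
-/

set_option autoImplicit false

namespace Cfsg.Agent.Lib.Helper88.MR
open TC

section
variable (B : ℕ)

/-- the digit number `j`. -/
def dg (x j : ℕ) : ℕ := x / B ^ j % B

theorem dg_zero (x : ℕ) : dg B x 0 = x % B := by simp [dg]

theorem dg_succ (x j : ℕ) : dg B x (j + 1) = dg B (x / B) j := by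
  rw [dg, dg, pow_succ', Nat.div_div_eq_div_mul]

theorem dg_of_zero (j : ℕ) : dg B 0 j = 0 := by simp [dg]

variable {B}

theorem dg_add (hB : 0 < B) : ∀ (j x y : ℕ), (∀ i, dg B x i + dg B y i < B) →
    dg B (x + y) j = dg B x j + dg B y j := by
  intro j
  induction j with
  | zero =>
    intro x y h
    have h0 := h 0
    rw [dg_zero, dg_zero] at h0
    rw [dg_zero, dg_zero, dg_zero, Nat.add_mod, Nat.mod_eq_of_lt h0]
  | succ j ih =>
    intro x y h
    have h0 := h 0
    rw [dg_zero, dg_zero] at h0
    have h1 : (x + y) / B = x / B + y / B := by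
      rw [Nat.add_div hB, if_neg (by omega), Nat.add_zero]
    rw [dg_succ, dg_succ, dg_succ, h1]
    apply ih
    intro i
    have := h (i + 1)
    rwa [dg_succ, dg_succ] at this

theorem mul_split (c x : ℕ) : c * x = c * (x % B) + B * (c * (x / B)) := by
  conv_lhs => rw [← Nat.div_add_mod x B]
  ring

theorem dg_mul (hB : 0 < B) : ∀ (j c x : ℕ), (∀ i, c * dg B x i < B) → dg B (c * x) j = c * dg B x j := by
  intro j
  induction j with
  | zero =>
    intro c x h
    have h0 := h 0
    rw [dg_zero] at h0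
    rw [dg_zero, dg_zero, mul_split (B := B) c x, Nat.add_mul_mod_self_left, Nat.mod_eq_of_lt h0]
  | succ j ih =>
    intro c x h
    have h0 := h 0
    rw [dg_zero] at h0
    have h1 : c * x / B = c * (x / B) := by
      rw [mul_split (B := B) c x, Nat.add_mul_div_left _ _ hB, Nat.div_eq_of_lt h0, Nat.zero_add]
    rw [dg_succ, dg_succ, h1]
    apply ih
    intro i
    have := h (i + 1)
    rwa [dg_succ] at this

variable (B)

/-- the linear combination of the rows `Rs` whose coefficients are the digits of `a`. -/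
noncomputable def rowmul (Rs : List ℕ) : ℕ → ℕ :=
  List.rec (fun _ => 0) (fun R _ ih a => Nat.add (Nat.mul (a % B) R) (ih (a / B))) Rs

theorem rowmul_nil (a : ℕ) : rowmul B [] a = 0 := rfl

theorem rowmul_cons (R : ℕ) (r : List ℕ) (a : ℕ) :
    rowmul B (R :: r) a = (a % B) * R + rowmul B r (a / B) := rfl

/-- the digit number `j` of the linear combination. -/
def sd (j : ℕ) : List ℕ → ℕ → ℕ
  | [], _ => 0
  | R :: r, a => (a % B) * dg B R j + sd j r (a / B)

variable {B}

theorem dg_rowmul (hB : 0 < B) : ∀ (Rs : List ℕ) (a : ℕ), (∀ i, sd B i Rs a < B) →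
    ∀ j, dg B (rowmul B Rs a) j = sd B j Rs a := by
  intro Rs
  induction Rs with
  | nil => intro a _ j; rw [rowmul_nil, dg_of_zero]; rfl
  | cons R r ih =>
    intro a h j
    have hm : ∀ i, (a % B) * dg B R i < B := fun i => lt_of_le_of_lt (Nat.le_add_right _ _) (h i)
    have hr : ∀ i, sd B i r (a / B) < B := fun i => lt_of_le_of_lt (Nat.le_add_left _ _) (h i)
    have e1 : ∀ i, dg B ((a % B) * R) i = (a % B) * dg B R i := fun i => dg_mul hB i _ _ hm
    have e2 := ih (a / B) hr
    rw [rowmul_cons, dg_add hB j _ _ (fun i => by rw [e1, e2]; exact h i), e1, e2]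
    rfl

theorem sd_eq (j : ℕ) : ∀ (Rs : List ℕ) (a : ℕ),
    sd B j Rs a = ∑ k ∈ Finset.range Rs.length, dg B a k * dg B (Rs.getD k 0) j := by
  intro Rs
  induction Rs with
  | nil => intro a; simp [sd]
  | cons R r ih =>
    intro a
    rw [sd, ih (a / B), List.length_cons, Finset.sum_range_succ']
    simp only [dg_zero, List.getD_cons_zero, List.getD_cons_succ, dg_succ]
    rw [Nat.add_comm]

theorem sd_le (j m : ℕ) : ∀ (Rs : List ℕ) (a : ℕ), (∀ k, dg B a k ≤ m) → (∀ R ∈ Rs, dg B R j ≤ m) →
    sd B j Rs a ≤ Rs.length * (m * m) := by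
  intro Rs
  induction Rs with
  | nil => intro a _ _; simp [sd]
  | cons R r ih =>
    intro a ha hR
    have h0 := ha 0
    rw [dg_zero] at h0
    have h1 := ih (a / B) (fun k => by have := ha (k + 1); rwa [dg_succ] at this)
      (fun R' hR' => hR R' (List.mem_cons_of_mem _ hR'))
    have h2 := Nat.mul_le_mul h0 (hR R List.mem_cons_self)
    rw [sd, List.length_cons, Nat.succ_mul]
    omega

variable (B)

/-- the reduction of the first `n` digits modulo `p`. -/
noncomputable def red (p n : ℕ) : ℕ → ℕ :=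
  Nat.rec (fun _ => 0) (fun _ ih x => Nat.add (x % B % p) (Nat.mul B (ih (x / B)))) n

theorem red_zero (p x : ℕ) : red B p 0 x = 0 := rfl

theorem red_succ (p n x : ℕ) : red B p (n + 1) x = x % B % p + B * red B p n (x / B) := rfl

variable {B}

theorem dg_red {p : ℕ} (hp : 0 < p) (hpB : p ≤ B) : ∀ (n x j : ℕ),
    dg B (red B p n x) j = if j < n then dg B x j % p else 0 := by
  intro n
  induction n with
  | zero => intro x j; rw [red_zero, dg_of_zero, if_neg (Nat.not_lt_zero j)]
  | succ n ih =>
    intro x j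
    have hlt : x % B % p < B := lt_of_lt_of_le (Nat.mod_lt _ hp) hpB
    cases j with
    | zero =>
      rw [red_succ, dg_zero, Nat.add_mul_mod_self_left, Nat.mod_eq_of_lt hlt, if_pos (Nat.succ_pos n), dg_zero]
    | succ j =>
      rw [red_succ, dg_succ, Nat.add_mul_div_left _ _ (by omega), Nat.div_eq_of_lt hlt, Nat.zero_add, ih, dg_succ]
      simp only [Nat.succ_lt_succ_iff]

variable (B)

/-- the product of two matrices. -/
noncomputable def mulM (p n : ℕ) (A Bm : List ℕ) : List ℕ := mp (fun a => red B p n (rowmul B Bm a)) A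

/-- the matrix with given rows. -/
def toMat (p n : ℕ) (A : List ℕ) : Matrix (Fin n) (Fin n) (ZMod p) :=
  fun i j => ((dg B (A.getD i.val 0) j.val : ℕ) : ZMod p)

/-- a valid list of rows. -/
def Val (p n : ℕ) (A : List ℕ) : Prop := A.length = n ∧ ∀ a ∈ A, ∀ k, dg B a k < p

variable {B}

theorem val_mulM {p n : ℕ} (hp : 0 < p) (hpB : p ≤ B) {A : List ℕ} (hA : A.length = n) (Bm : List ℕ) :
    Val B p n (mulM B p n A Bm) := by
  constructor
  · rw [mulM, mp_eq, List.length_map, hA]
  · intro a ha k
    rw [mulM, mp_eq, List.mem_map] at ha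
    obtain ⟨a', _, rfl⟩ := ha
    rw [dg_red hp hpB]
    split_ifs
    · exact Nat.mod_lt _ hp
    · exact hp

theorem val_of_red {p n : ℕ} (hp : 0 < p) (hpB : p ≤ B) {A : List ℕ} (hA : A.length = n)
    (h : ∀ a ∈ A, red B p n a = a) : Val B p n A := by
  refine ⟨hA, fun a ha k => ?_⟩
  rw [← h a ha, dg_red hp hpB]
  split_ifs
  · exact Nat.mod_lt _ hp
  · exact hp

theorem toMat_mulM {p n : ℕ} (hp : 0 < p) (hpB : p ≤ B) (hov : n * ((p - 1) * (p - 1)) < B) {A Bm : List ℕ}
    (hA : Val B p n A) (hBm : Val B p n Bm) :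
    toMat B p n (mulM B p n A Bm) = toMat B p n A * toMat B p n Bm := by
  ext i j
  rw [Matrix.mul_apply]
  have hB : 0 < B := by omega
  have hi : i.val < A.length := by rw [hA.1]; exact i.2
  set a := A.getD i.val 0 with ha
  have hamem : a ∈ A := by
    rw [ha, List.getD_eq_getElem _ _ hi]; exact List.getElem_mem hi
  have h1 : (mulM B p n A Bm).getD i.val 0 = red B p n (rowmul B Bm a) := by
    rw [mulM, mp_eq, List.getD_eq_getElem _ _ (by rw [List.length_map]; exact hi), List.getElem_map, ha,
      List.getD_eq_getElem _ _ hi]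
  have hbound : ∀ t, sd B t Bm a < B := by
    intro t
    have := sd_le (B := B) t (p - 1) Bm a (fun k => by have := hA.2 a hamem k; omega)
      (fun R hR => by have := hBm.2 R hR t; omega)
    rw [hBm.1] at this
    omega
  show ((dg B ((mulM B p n A Bm).getD i.val 0) j.val : ℕ) : ZMod p) = _
  rw [h1, dg_red hp hpB, if_pos j.2, ZMod.natCast_mod, dg_rowmul hB Bm a hbound, sd_eq, hBm.1, Nat.cast_sum,
    ← Fin.sum_univ_eq_sum_range (fun k => ((dg B a k * dg B (Bm.getD k 0) j.val : ℕ) : ZMod p)) n]
  apply Finset.sum_congr rfl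
  intro k _
  rw [Nat.cast_mul]
  rfl

variable (B)

/-- the value of a word (a product of letters, the first letter on the left). -/
noncomputable def evW (p n : ℕ) (L : List (List ℕ)) (e : List ℕ) (W : List ℕ) : List ℕ :=
  List.rec e (fun c _ ih => mulM B p n (nth [] L c) ih) W

theorem evW_nil (p n : ℕ) (L : List (List ℕ)) (e : List ℕ) : evW B p n L e [] = e := rfl

theorem evW_cons (p n : ℕ) (L : List (List ℕ)) (e : List ℕ) (c : ℕ) (r : List ℕ) :
    evW B p n L e (c :: r) = mulM B p n (nth [] L c) (evW B p n L e r) := rfl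

/-- the powers of a matrix. -/
noncomputable def powM (p n : ℕ) (X e : List ℕ) (k : ℕ) : List ℕ :=
  Nat.rec e (fun _ ih => mulM B p n X ih) k

theorem powM_zero (p n : ℕ) (X e : List ℕ) : powM B p n X e 0 = e := rfl

theorem powM_succ (p n : ℕ) (X e : List ℕ) (k : ℕ) : powM B p n X e (k + 1) = mulM B p n X (powM B p n X e k) := rfl

end

end Cfsg.Agent.Lib.Helper88.MR
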