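import Cfsg.Agent.Lib.Helper88.O73Data

set_option autoImplicit false
set_option maxRecDepth 1000000
set_option maxHeartbeats 0

namespace Cfsg.Agent.Lib.Helper88.O73
open TC

noncomputable def st4 : List (ℕ × ℕ × List ℕ) := parse (unpI 256 [0x880080c00000c80383200000880000c00000c80003500000780403200000b80080c00000780203500000580103500000a80203400000980080c00000880203500000680103500000b80100c00000180080c00000a80083400000480103300000c80203200000600000500000400000300000280083100000980100c00000380080c00000a812000000006000005813000000004000003000002813000000003000002812000000001812800000001812000000001811000])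

theorem par4 : parOK 7 127 17 19 rels = true := by decide +kernel

theorem fin4 : finOK 7 127 20 17 12 (run 7 127 20 17 rels st4 (initS 7 20 19)) = true := by
  decide +kernel

theorem fix4 : fixOK nets 20 19 4 = true := by decide +kernel

theorem orb4 : Nat.ble 12 (cnt 351 (orb nets (lets 20 17) [34,36,34,36,34,36] 4)) = true := by decide +kernel

end Cfsg.Agent.Lib.Helper88.O73
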