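import Cfsg.Agent.Lib.Helper88.O73Data

set_option autoImplicit false
set_option maxRecDepth 1000000
set_option maxHeartbeats 0

namespace Cfsg.Agent.Lib.Helper88.O73
open TC

theorem rel0_ok : relsOK nets Bs rels0 = true := by decide +kernel

end Cfsg.Agent.Lib.Helper88.O73
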