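import Cfsg.Agent.Lib.Helper88.O73Data

set_option autoImplicit false
set_option maxRecDepth 1000000
set_option maxHeartbeats 0

namespace Cfsg.Agent.Lib.Helper88.O73
open TC

def pd : PD := [
  ([0], 1, [16,20,22,28,32,20,26,28,32,20,22,18], [0,17,21,23,29,33,21,27,0,29,21,33,23,21]),
  ([0,8], 10, [16,18,20,28,32,26,28,20,32,18], [0,17,19,21,29,33,27,29,21,0,37,29,17,33])]

def Zs : List (List ℕ) := [
  [5,33,6,3],
  [22,5,28,7],
  [4,29,21,8],
  [20,7,29],
  [29,20,6],
  [22,29,13,2],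
  [28,36,23,5],
  [29,2,12,36],
  [22,5,28,7],
  [29,20,6],
  [33,5,23],
  [29,20,6],
  [29,20,6],
  [29,20,6],
  [4,28,20,2],
  [29,20,6],
  [29,20,6],
  [20,7,29],
  [33,5,23],
  [22,29,13,2]]

theorem tr_ok : Nat.beq (orb nets (lets 20 0) [0,4,8,14,28,32,36,20,26,22,28,4] 0) (fullN 351) = true := by decide +kernel

theorem prim_ok : primOK nets 351 20 8 0 pd = true := by decide +kernel

theorem simp_ok : simpOK nets Bs 20 13 Zs = true := by decide +kernel

end Cfsg.Agent.Lib.Helper88.O73
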