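import Cfsg.Agent.Lib.Helper88.TCRigid
import Cfsg.Agent.Lib.Helper88.O73Rel0
import Cfsg.Agent.Lib.Helper88.O73L0
import Cfsg.Agent.Lib.Helper88.O73L1
import Cfsg.Agent.Lib.Helper88.O73L2
import Cfsg.Agent.Lib.Helper88.O73L3
import Cfsg.Agent.Lib.Helper88.O73L4
import Cfsg.Agent.Lib.Helper88.O73L5
import Cfsg.Agent.Lib.Helper88.O73Simp

/-!
The simple group `O(7,3)` as a permutation group of degree 351, and the fact that the relators `O73.rels` on twenty
generators define it: every group generated by twenty elements satisfying the relators is trivial or isomorphic to the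
permutation group.
-/

set_option autoImplicit false

namespace Cfsg.Agent.Lib.Helper88.O73
open TC

/-- the twenty generating permutations. -/
noncomputable abbrev Yp : List (Equiv.Perm (Fin 351)) := gens 351 nets

theorem rels_perm : ∀ W ∈ rels, ev Yp W = 1 := by
  intro W hW
  rw [rels_eq] at hW
  exact relsOK_spec nets_ok sep_ok rel0_ok W hW

theorem card_perm : Nat.card (Kd Yp 20 0) = 4585351680 := by
  have c0 := level_eq' nets_ok rels_perm par0 fin0 (b := ⟨0, by norm_num⟩) fix0 orb0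
  have c1 := level_eq' nets_ok rels_perm par1 fin1 (b := ⟨1, by norm_num⟩) fix1 orb1
  have c2 := level_eq' nets_ok rels_perm par2 fin2 (b := ⟨2, by norm_num⟩) fix2 orb2
  have c3 := level_eq' nets_ok rels_perm par3 fin3 (b := ⟨3, by norm_num⟩) fix3 orb3
  have c4 := level_eq' nets_ok rels_perm par4 fin4 (b := ⟨4, by norm_num⟩) fix4 orb4
  have c5 := level_eq' nets_ok rels_perm par5 fin5 (b := ⟨9, by norm_num⟩) fix5 orb5
  rw [card_Kd_self] at c5
  rw [c5] at c4
  rw [c4] at c3
  rw [c3] at c2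
  rw [c2] at c1
  rw [c1] at c0
  rw [c0]

instance simple_perm : IsSimpleGroup (Kd Yp 20 0) := by
  have : Fact (Nat.Prime 13) := ⟨by norm_num⟩
  exact TC.simple_perm nets_ok sep_ok (b := ⟨0, by norm_num⟩) fix0 tr_ok prim_ok (p := 13) (by norm_num)
    (by rw [card_perm]; norm_num) (by rw [card_perm]; norm_num) simp_ok

theorem rels_let : ∀ W ∈ rels, ∀ l ∈ W, l < 2 * 20 := by decide +kernel

/-- the relators bound the order in every group. -/
theorem card_le_abs {Γ : Type*} [Group Γ] (Y : List Γ) (h : ∀ W ∈ rels, ev Y W = 1) :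
    Finite (Kd Y 20 0) ∧ Nat.card (Kd Y 20 0) ≤ 4585351680 := by
  have f20 : Finite (Kd Y 20 20) := by rw [Kd_self]; infer_instance
  obtain ⟨f5, c5⟩ := level_le h par5 fin5
  obtain ⟨f4, c4⟩ := level_le h par4 fin4
  obtain ⟨f3, c3⟩ := level_le h par3 fin3
  obtain ⟨f2, c2⟩ := level_le h par2 fin2
  obtain ⟨f1, c1⟩ := level_le h par1 fin1
  obtain ⟨f0, c0⟩ := level_le h par0 fin0
  rw [card_Kd_self] at c5
  refine ⟨f0, ?_⟩
  omega

/-- **The relators define `O(7,3)`.** -/
theorem abs_iso {Γ : Type*} [Group Γ] (Y : List Γ) (h : ∀ W ∈ rels, ev Y W = 1) [Nontrivial (Kd Y 20 0)] :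
    Nonempty (Kd Yp 20 0 ≃* Kd Y 20 0) := by
  have hz : ∀ W ∈ rels, ev (zipY Y Yp 20) W = 1 := by
    intro W hW
    rw [ev_zipY _ _ W (rels_let W hW), h W hW, rels_perm W hW]
    rfl
  obtain ⟨hf, hc⟩ := card_le_abs _ hz
  exact rigid Y Yp card_perm hf hc

theorem abs_simple {Γ : Type*} [Group Γ] (Y : List Γ) (h : ∀ W ∈ rels, ev Y W = 1) [Nontrivial (Kd Y 20 0)] :
    IsSimpleGroup (Kd Y 20 0) ∧ Nat.card (Kd Y 20 0) = 4585351680 := by
  obtain ⟨e⟩ := abs_iso Y h
  exact ⟨e.symm.isSimpleGroup, by rw [← Nat.card_congr e.toEquiv, card_perm]⟩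

end Cfsg.Agent.Lib.Helper88.O73
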