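import Cfsg.Agent.Lib.Helper88.MatCode
import Cfsg.Agent.Lib.Helper88.O73Abs
import Cfsg.Agent.S0292

/-!
The group `PΩ(7,3)` of the quadratic form `x₀² + x₁y₁ + x₂y₂ + x₃y₃` over `ZMod 3` is isomorphic to the permutation group
of degree 351 of `O73Abs`.
-/

set_option autoImplicit false
set_option maxRecDepth 100000

namespace Cfsg.Agent.Lib.Helper88.O73
open TC MC

/-- the index type. -/
abbrev I7 : Type := Unit ⊕ (Fin 3 ⊕ Fin 3)

/-- the number of a row or column. -/
def idx : I7 → ℕ
  | .inl _ => 0
  | .inr (.inl i) => 1 + i.val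
  | .inr (.inr i) => 4 + i.val

theorem idx_lt (i : I7) : idx i < 7 := by
  rcases i with _ | i | i
  · simp [idx]
  · have := i.2; simp only [idx]; omega
  · have := i.2; simp only [idx]; omega

theorem idx_sum (f : ℕ → ZMod 3) : ∑ k : I7, f (idx k) = ∑ k ∈ Finset.range 7, f k := by
  simp only [Fintype.sum_sum_type, Fin.sum_univ_three, Finset.sum_range_succ, Finset.sum_range_zero, idx,
    Finset.univ_unique, Finset.sum_singleton]
  simp only [Fin.val_zero, Fin.val_one, Fin.val_two]
  ring

/-- the matrix with a given code. -/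
abbrev M (t : ℕ) : Matrix I7 I7 (ZMod 3) := mk 7 3 4 idx t

/-- the code of the product. -/
noncomputable abbrev mu (s t : ℕ) : ℕ := mulC 7 3 4 s t

theorem M_mul (s t : ℕ) : M (mu s t) = M s * M t := mk_mulC (by norm_num) (by norm_num) idx_lt idx_sum s t

/-- the code of the identity matrix. -/
def eC : ℕ := 0x1000100010001000100010001

theorem M_one : M eC = 1 := by decide +kernel

/-- the invertible matrix with a given code (and a given code of the inverse). -/
noncomputable def gl (c c' : ℕ) : GL I7 (ZMod 3) :=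
  open Classical in if h : M c * M c' = 1 ∧ M c' * M c = 1 then ⟨M c, M c', h.1, h.2⟩ else 1

theorem gl_ok {c c' : ℕ} (h1 : mu c c' = eC) (h2 : mu c' c = eC) : M c * M c' = 1 ∧ M c' * M c = 1 :=
  ⟨by rw [← M_mul, h1, M_one], by rw [← M_mul, h2, M_one]⟩

theorem gl_coe {c c' : ℕ} (h1 : mu c c' = eC) (h2 : mu c' c = eC) :
    ((gl c c' : GL I7 (ZMod 3)) : Matrix I7 I7 (ZMod 3)) = M c := by
  rw [gl, dif_pos (gl_ok h1 h2)]

theorem gl_inv_coe {c c' : ℕ} (h1 : mu c c' = eC) (h2 : mu c' c = eC) :
    (((gl c c')⁻¹ : GL I7 (ZMod 3)) : Matrix I7 I7 (ZMod 3)) = M c' := by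
  rw [gl, dif_pos (gl_ok h1 h2)]
  rfl

/-- the codes of the letters. -/
def LC : List ℕ := [0x1082200020081080200021040,0x1082200020081080200021040,0x1282200020089080208a29140,0x1282200020089080208a29140,0x2000200000802000200800002,0x2000200000802000200800002,0x20009888200aa8aa12a8a9510,0x20009888200aa8aa12a8a9510,0x1481200020091058620022480,0x1481200020091058620022480,0x18812000200a1068a10022880,0x18812000200a1068a10022880,0x6802000200a4029605a20002,0x6802000200a4029605a20002,0x4802000200a0028600020002,0x4802000200a0028600020002,0x1282200020089080208a29140,0x1282200020089080208a29140,0x2a06a8020084400204aa0002,0x2a06a8020084400204aa0002,0x18a985089610855181586244,0x18a985089610855181586244,0x1881100258890220590011406,0x488100290aa1290960010882,0x2a06a8020084400204aa0002,0x2a06a8020084400204aa0002,0x2684100290aa12a81a5a20142,0x12821002a48a6229580a19406,0x2aa865184a6a49650aa1a08a0,0x1998a25a94aa426a55242414,0x2a06a8020084400204aa0002,0x2a06a8020084400204aa0002,0x880924420002818a00022452,0x28a2a04820010848920020022,0x290a58020084800204a60002,0x290a58020084800204a60002,0x21410880200424591191622a0,0x214154842005a0490011a6880,0x18812000200a1068a10022880,0x18812000200a1068a10022880]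

/-- the codes of the transposed generators. -/
def LT : List ℕ := [0x1081200020081040200022080,0x1089200228981240200022088,0x2000200000802000200800002,0x28a912a4aa9020089900208a8,0x1092618420081480200021060,0x10a2a28820081880200021050,0xa4629225880600200020002,0xa0628020080400200020002,0x1089200228981240200022088,0x4842002a48a0228680020002,0x812195181688145989486244,0x12a1950410088400100a95012,0x4842002a48a0228680020002,0x22a45a9210981240104aa02a2,0x24a8a66a450981a28a95a0a60,0x4842002a48a0228680020002,0x8129084200a2844a10020402,0x884200264890218a40020002,0x205a0091a1242188560021050,0x10a2a28820081880200021050]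

/-- the twenty generating matrices. -/
noncomputable def Ym : List (GL I7 (ZMod 3)) :=
  (List.range 20).map fun k => gl (nth 0 LC (2 * k)) (nth 0 LC (2 * k + 1))

theorem LC_inv : ∀ k < 20, mu (nth 0 LC (2 * k)) (nth 0 LC (2 * k + 1)) = eC ∧
    mu (nth 0 LC (2 * k + 1)) (nth 0 LC (2 * k)) = eC := by
  decide +kernel

theorem Ym_getD {k : ℕ} (h : k < 20) : Ym.getD k 1 = gl (nth 0 LC (2 * k)) (nth 0 LC (2 * k + 1)) := by
  rw [Ym, List.getD_eq_getElem _ _ (by simpa using h)]
  simp

theorem lt_Ym {l : ℕ} (h : l < 40) : ((lt Ym l : GL I7 (ZMod 3)) : Matrix I7 I7 (ZMod 3)) = M (nth 0 LC l) := by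
  rcases Nat.even_or_odd' l with ⟨k, rfl | rfl⟩
  · rw [lt_even, Ym_getD (by omega), gl_coe (LC_inv k (by omega)).1 (LC_inv k (by omega)).2]
  · rw [lt_odd, Ym_getD (by omega), gl_inv_coe (LC_inv k (by omega)).1 (LC_inv k (by omega)).2]

theorem ev_Ym (W : List ℕ) (h : ∀ l ∈ W, l < 40) :
    ((ev Ym W : GL I7 (ZMod 3)) : Matrix I7 I7 (ZMod 3)) = M (evC 7 3 4 eC LC W) := by
  induction W with
  | nil => rw [evC_nil, M_one]; rfl
  | cons l r ih =>
    rw [ev, evC_cons, M_mul, Units.val_mul, ih fun l' hl' => h l' (List.mem_cons_of_mem _ hl'),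
      lt_Ym (h l List.mem_cons_self)]

theorem mem_split {α : Type} {l : List α} (i : ℕ) {W : α} (h : W ∈ l) : W ∈ tk l i ∨ W ∈ drp l i := by
  rw [tk_eq, drp_eq]
  rw [← List.take_append_drop i l] at h
  exact List.mem_append.1 h

theorem rels_code0 : relsC 7 3 4 eC LC (tk rels 96) = true := by decide +kernel

theorem rels_code1 : relsC 7 3 4 eC LC (tk (drp rels 96) 27) = true := by decide +kernel

theorem rels_code2 : relsC 7 3 4 eC LC (tk (drp (drp rels 96) 27) 16) = true := by decide +kernel

theorem rels_code3 : relsC 7 3 4 eC LC (drp (drp (drp rels 96) 27) 16) = true := by decide +kernel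

theorem rels_code : ∀ W ∈ rels, evC 7 3 4 eC LC W = eC := by
  intro W hW
  rcases mem_split 96 hW with h | h
  · exact relsC_spec rels_code0 W h
  rcases mem_split 27 h with h | h
  · exact relsC_spec rels_code1 W h
  rcases mem_split 16 h with h | h
  · exact relsC_spec rels_code2 W h
  · exact relsC_spec rels_code3 W h

theorem rels_mat : ∀ W ∈ rels, ev Ym W = 1 := by
  intro W hW
  apply Units.ext
  rw [ev_Ym W (rels_let W hW), rels_code W hW, M_one]
  rfl

end Cfsg.Agent.Lib.Helper88.O73
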