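import Cfsg.Agent.Lib.Helper88.MatCode4
import Cfsg.Agent.Lib.Helper88.TCMap
import Cfsg.Prelude.Def_Classical

/-!
The special unitary groups over the concrete field with four elements, inside the general linear group.
-/

set_option autoImplicit false

namespace Cfsg.Agent.Lib.Helper88.SU4
open TC Matrix Cfsg.Agent.Lib.Helper34

variable {n : ℕ}

/-- the inclusion of the special unitary group in the general linear group. -/
noncomputable def iota (n : ℕ) : Cfsg.SU n F4c 2 →* GL (Fin n) F4c :=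
  Matrix.SpecialLinearGroup.toGL.comp (Cfsg.SU n F4c 2).subtype

theorem iota_coe (x : Cfsg.SU n F4c 2) :
    ((iota n x : GL (Fin n) F4c) : Matrix (Fin n) (Fin n) F4c) = (x.1 : Matrix (Fin n) (Fin n) F4c) := rfl

theorem iota_inj : Function.Injective (iota n) := by
  intro x y h
  apply Subtype.ext
  apply Subtype.ext
  have := congrArg (fun g : GL (Fin n) F4c => (g : Matrix (Fin n) (Fin n) F4c)) h
  exact this

theorem sq_add (a b : F4c) : (a + b) ^ 2 = a ^ 2 + b ^ 2 := by revert a b; decide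

theorem sq_mul (a b : F4c) : (a * b) ^ 2 = a ^ 2 * b ^ 2 := mul_pow a b 2

theorem sq_sum {ι : Type*} (s : Finset ι) (f : ι → F4c) : (∑ i ∈ s, f i) ^ 2 = ∑ i ∈ s, f i ^ 2 := by
  classical
  induction s using Finset.induction_on with
  | empty => simp
  | insert a s ha ih => rw [Finset.sum_insert ha, Finset.sum_insert ha, sq_add, ih]

theorem herm_eq (u v : Fin n → F4c) : Cfsg.hermForm n F4c 2 u v = u ⬝ᵥ fun k => v k ^ 2 := rfl

theorem sq_mulVec (A : Matrix (Fin n) (Fin n) F4c) (v : Fin n → F4c) :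
    (fun k => (A *ᵥ v) k ^ 2) = (A.map (· ^ 2)) *ᵥ fun k => v k ^ 2 := by
  funext k
  simp only [Matrix.mulVec, dotProduct, sq_sum, sq_mul, Matrix.map_apply]

theorem herm_inv (A : Matrix (Fin n) (Fin n) F4c) (h : Aᵀ * A.map (· ^ 2) = 1) (u v : Fin n → F4c) :
    Cfsg.hermForm n F4c 2 (A *ᵥ u) (A *ᵥ v) = Cfsg.hermForm n F4c 2 u v := by
  rw [herm_eq, herm_eq, sq_mulVec, ← Matrix.vecMul_transpose, ← Matrix.dotProduct_mulVec, Matrix.mulVec_mulVec, h,
    Matrix.one_mulVec]

/-- a criterion for the membership in the special unitary group. -/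
theorem mem_range (g : GL (Fin n) F4c) (hdet : (g : Matrix (Fin n) (Fin n) F4c).det = 1)
    (hform : (g : Matrix (Fin n) (Fin n) F4c)ᵀ * (g : Matrix (Fin n) (Fin n) F4c).map (· ^ 2) = 1) :
    g ∈ (iota n).range := by
  refine ⟨⟨⟨(g : Matrix (Fin n) (Fin n) F4c), hdet⟩, ?_⟩, ?_⟩
  · intro u v
    exact herm_inv _ hform u v
  · apply Units.ext
    rfl

theorem det_of_sq (A : Matrix (Fin n) (Fin n) F4c) (h : A * A = 1) : A.det = 1 := by
  have h1 : A.det * A.det = 1 := by rw [← Matrix.det_mul, h, Matrix.det_one]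
  have h2 : ∀ x : F4c, x * x = 1 → x = 1 := by decide
  exact h2 _ h1

/-- an element whose matrix is scalar is central. -/
theorem central_of_scalar (x : Cfsg.SU n F4c 2) (c : F4c)
    (h : ((iota n x : GL (Fin n) F4c) : Matrix (Fin n) (Fin n) F4c) = c • 1) :
    x ∈ Subgroup.center (Cfsg.SU n F4c 2) := by
  rw [Subgroup.mem_center_iff]
  intro y
  apply iota_inj
  apply Units.ext
  rw [map_mul, map_mul, Units.val_mul, Units.val_mul, h, Matrix.mul_smul, Matrix.smul_mul, mul_one, one_mul]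

end Cfsg.Agent.Lib.Helper88.SU4
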