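import Cfsg.Agent.Lib.Helper88.SuzPData

set_option autoImplicit false
set_option maxRecDepth 1000000
set_option maxHeartbeats 0

namespace Cfsg.Agent.Lib.Helper88.SuzP
open TC

theorem relH_ok : relsOK nets Bs relsH = true := by decide +kernel

theorem relQ_ok : relsOK nets Bs relsQ = true := by decide +kernel

theorem relD_ok : relsOK nets Bs relsD = true := by decide +kernel

theorem fixT : fixOK nets 13 13 2 = true := by decide +kernel

theorem orbN : Nat.ble 2 (cnt 1782 (orb nets (lets 13 0) [0] 2)) = true := by decide +kernel

end Cfsg.Agent.Lib.Helper88.SuzP
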