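import Cfsg.Agent.Lib.Helper88.TCCore
import Cfsg.Agent.Lib.Helper35.TCCore

/-!
Generators which are defined by words: membership in subgroups.
-/

set_option autoImplicit false

namespace Cfsg.Agent.Lib.Helper88.TC
open Cfsg.Agent.Lib.Helper35

section
variable {Γ : Type*} [Group Γ]

theorem evInvLetters (Y : List Γ) (f : ℕ → ℕ) (b : List ℕ) :
    ev Y (b.map fun c => 2 * f c + 1) = (wval (fun c => Y.getD (f c) 1) b)⁻¹ := by
  induction b with
  | nil => simp [ev]
  | cons c r ih => rw [List.map_cons, ev, ih, lt_odd, wval_cons, mul_inv_rev]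

theorem evMemOf (Y : List Γ) (S : Subgroup Γ) (W : List ℕ) (h : ∀ l ∈ W, Y.getD (l / 2) 1 ∈ S) : ev Y W ∈ S := by
  induction W with
  | nil => exact S.one_mem
  | cons l r ih =>
    rw [ev]
    refine S.mul_mem (ih fun l' hl' => h l' (List.mem_cons_of_mem _ hl')) ?_
    have h1 := h l List.mem_cons_self
    rw [lt]
    split_ifs
    · exact h1
    · exact S.inv_mem h1

/-- generators defined by words in earlier generators and in elements of a subgroup lie in the subgroup. -/
theorem memOfDefs (Y : List Γ) (S : Subgroup Γ) (n m : ℕ) (D : List (List ℕ))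
    (hS : ∀ k, n ≤ k → k < m → Y.getD k 1 ∈ S)
    (hD : ∀ k < n, ev Y (nth [] D k ++ [2 * k + 1]) = 1)
    (hl : ∀ k < n, ∀ l ∈ nth [] D k, l < 2 * k ∨ (2 * n ≤ l ∧ l < 2 * m)) :
    ∀ k < n, Y.getD k 1 ∈ S := by
  intro k
  induction k using Nat.strong_induction_on with
  | _ k ih =>
    intro hk
    have h1 := hD k hk
    rw [ev_append, ev, ev, one_mul, lt_odd, inv_mul_eq_one] at h1
    rw [h1]
    apply evMemOf
    intro l hl'
    rcases hl k hk l hl' with h2 | ⟨h2, h3⟩
    · exact ih (l / 2) (by omega) (by omega)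
    · exact hS (l / 2) (by omega) (by omega)

/-- generators defined by words in earlier generators lie in every subgroup which contains the first ones. -/
theorem memOfDefs2 (Y : List Γ) (S : Subgroup Γ) (n0 n : ℕ) (D : List (List ℕ))
    (hS : ∀ k < n0, Y.getD k 1 ∈ S)
    (hD : ∀ k, n0 ≤ k → k < n → ev Y (nth [] D k ++ [2 * k + 1]) = 1)
    (hl : ∀ k, n0 ≤ k → k < n → ∀ l ∈ nth [] D k, l < 2 * k) :
    ∀ k < n, Y.getD k 1 ∈ S := by
  intro k
  induction k using Nat.strong_induction_on with
  | _ k ih =>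
    intro hk
    by_cases h0 : k < n0
    · exact hS k h0
    have h1 := hD k (by omega) hk
    rw [ev_append, ev, ev, one_mul, lt_odd, inv_mul_eq_one] at h1
    rw [h1]
    apply evMemOf
    intro l hl'
    have h2 := hl k (by omega) hk l hl'
    exact ih (l / 2) (by omega) (by omega)

end

end Cfsg.Agent.Lib.Helper88.TC
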