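import Cfsg.Agent.Lib.Helper88.SuzPRel
import Cfsg.Agent.Lib.Helper88.SuzPRelS
import Cfsg.Agent.Lib.Helper88.G24Abs
import Cfsg.Agent.Lib.Helper88.TCDefs
import Cfsg.Agent.Lib.Helper35.Simple3
import Cfsg.Agent.Lib.Helper35.CoxIface
import Cfsg.Agent.Lib.Helper35.PresSuz
import Cfsg.Agent.S1694
import Cfsg.Agent.S1680

/-!
The presented sporadic Suzuki group acts faithfully on 1782 points; the subgroup generated by `a, …, f` is isomorphic to
the permutation group of degree 416 of `G24Abs`.
-/

set_option autoImplicit false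

namespace Cfsg.Agent.Lib.Helper88.SuzP
open TC Cfsg.Agent.Lib.Helper35 Cfsg.Spor

/-- the 20 permutations. -/
noncomputable abbrev Y : List (Equiv.Perm (Fin 1782)) := gens 1782 nets

/-- the places of `a, …, g` in the list. -/
def fm : List ℕ := [13,14,15,16,17,18,19]

/-- the images of the generators. -/
noncomputable def v (c : ℕ) : Equiv.Perm (Fin 1782) := Y.getD (nth 20 fm c) 1

theorem relsH_eq : relsH = PresSuz.R.map (fun b => b.map fun c => 2 * nth 20 fm c + 1) := by decide +kernel

theorem hvR : ∀ b ∈ PresSuz.R, wval v b = 1 := by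
  intro b hb
  have h1 : (b.map fun c => 2 * nth 20 fm c + 1) ∈ relsH := by
    rw [relsH_eq]; exact List.mem_map_of_mem hb
  have h2 := relsOK_spec nets_ok sep_ok relH_ok _ h1
  rw [evInvLetters, inv_eq_one] at h2
  exact h2

theorem len_Y : Y.length = 20 := by
  show (nets.map (gp 1782)).length = 20
  rw [List.length_map]; decide +kernel

theorem v_eq (c k : ℕ) (h : nth 20 fm c = k) : v c = Y.getD k 1 := by rw [v, h]

theorem v_ge {c : ℕ} (h : 7 ≤ c) : v c = 1 := by
  have h1 : nth 20 fm c = 20 := by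
    rw [nth_eq_getD, List.getD_eq_default]; simpa [fm] using h
  rw [v, h1, List.getD_eq_default _ _ (by rw [len_Y])]

theorem relsQ_mem : ∀ c < 7, [2 * nth 20 fm c, 2 * nth 20 fm c] ∈ relsQ := by decide +kernel

theorem v_sq (c : ℕ) : v c * v c = 1 := by
  by_cases h : c < 7
  · have h2 := relsOK_spec nets_ok sep_ok relQ_ok _ (relsQ_mem c h)
    rw [ev, ev, ev, lt_even, one_mul] at h2
    exact h2
  · rw [v_ge (by omega), one_mul]

theorem hvinv (c : ℕ) : v (PresSuz.cc.inv c) = (v c)⁻¹ := by
  rw [show PresSuz.cc.inv c = c from invOf_range 7 c]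
  exact eq_inv_of_mul_eq_one_left (v_sq c)

/-- the permutation representation of degree 1782 of the presented group `Suz`. -/
noncomputable def rho : Suz →* Equiv.Perm (Fin 1782) :=
  PresentedGroup.toGroup (f := fun x => v (PresSuz.cc.colIdx x))
    (cox_lift_eq_one Suz.edges Suz.extra PresSuz.cc PresSuz.extraL PresSuz.R PresSuz.allGens PresSuz.hOK
      PresSuz.hextra v hvinv hvR)

theorem rho_of (x : Suz.Gen) : rho (PresentedGroup.of x) = v (PresSuz.colIdx x) := PresentedGroup.toGroup.of _

/-- the generators of the subgroup `G2(4)`. -/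
abbrev Kgen : Set (FreeGroup Suz.Gen) := {Suz.a, Suz.b, Suz.c, Suz.d, Suz.e, Suz.f}

/-- the subgroup `G2(4)`. -/
abbrev K : Subgroup Suz :=
  (Subgroup.closure Kgen).map (PresentedGroup.mk (coxRelators Suz.edges ∪ {r | r ∈ Suz.extra}))

theorem hof (x : Suz.Gen) :
    rho (PresentedGroup.mk (coxRelators Suz.edges ∪ {r | r ∈ Suz.extra}) (FreeGroup.of x)) =
      v (PresSuz.colIdx x) := rho_of x

theorem Y_mem_K : ∀ k, 13 ≤ k → k < 19 → Y.getD k 1 ∈ K.map rho := by
  intro k h1 h2
  have key : ∀ w ∈ Kgen, rho (PresentedGroup.mk (coxRelators Suz.edges ∪ {r | r ∈ Suz.extra}) w) ∈ K.map rho :=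
    fun w hw => Subgroup.mem_map_of_mem _ (Subgroup.mem_map_of_mem _ (Subgroup.subset_closure hw))
  interval_cases k
  · have h := key Suz.a (by simp [Kgen])
    rw [hof] at h
    exact h
  · have h := key Suz.b (by simp [Kgen])
    rw [hof] at h
    exact h
  · have h := key Suz.c (by simp [Kgen])
    rw [hof] at h
    exact h
  · have h := key Suz.d (by simp [Kgen])
    rw [hof] at h
    exact h
  · have h := key Suz.e (by simp [Kgen])
    rw [hof] at h
    exact h
  · have h := key Suz.f (by simp [Kgen])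
    rw [hof] at h
    exact h

theorem defs_mem : ∀ k < 13, nth [] defs k ++ [2 * k + 1] ∈ relsD := by decide +kernel

theorem defs_let : ∀ k < 13, ∀ l ∈ nth [] defs k, l < 2 * k ∨ (2 * 13 ≤ l ∧ l < 2 * 19) := by decide +kernel

/-- the copy of `G2(4)`. -/
noncomputable abbrev N0 : Subgroup (Equiv.Perm (Fin 1782)) := Kd Y 13 0

theorem N0_le_K : N0 ≤ K.map rho := by
  show Kd Y 13 0 ≤ K.map rho
  rw [Kd, Subgroup.closure_le]
  rintro g ⟨k, _, h2, rfl⟩
  exact memOfDefs Y _ 13 19 defs Y_mem_K
    (fun k hk => relsOK_spec nets_ok sep_ok relD_ok _ (defs_mem k hk)) defs_let k h2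

instance nontrivial_N0 : Nontrivial N0 := by
  have h := level_ge nets_ok (Nat.zero_le 13) (b := ⟨2, by norm_num⟩) fixT orbN
  rw [card_Kd_self] at h
  show Nontrivial (Kd (gens 1782 nets) 13 0)
  exact Finite.one_lt_card_iff_nontrivial.1 (by omega)

theorem rho_inj : Function.Injective rho := by
  have hs : IsSimpleGroup Suz := Cfsg.Agent.S1694.result.1
  rcases hs.eq_bot_or_eq_top_of_normal rho.ker inferInstance with h | h
  · exact (MonoidHom.ker_eq_bot_iff _).1 h
  · exfalso
    obtain ⟨x, y, hxy⟩ := nontrivial_N0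
    have h1 : ∀ z : N0, (z : Equiv.Perm (Fin 1782)) = 1 := by
      intro z
      obtain ⟨w, _, hw⟩ := N0_le_K z.2
      rw [← hw]
      have : w ∈ rho.ker := by rw [h]; trivial
      exact this
    exact hxy (Subtype.ext ((h1 x).trans (h1 y).symm))

theorem relS : ∀ W ∈ G24.rels, ev Y W = 1 := fun W hW => relsOK_spec nets_ok sep_ok relS_ok W hW

theorem card_K : Nat.card K = 251596800 := by
  have h1 := Subgroup.card_mul_index K
  have h2 : K.index = 1782 := Cfsg.Agent.S1680.result.1
  have h3 : Nat.card Suz = 448345497600 := Cfsg.Agent.S1694.result.2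
  rw [h2, h3] at h1
  exact Nat.eq_of_mul_eq_mul_right (by norm_num : 0 < 1782) (h1.trans (by norm_num))

theorem K_map : K.map rho = N0 := by
  have hc : Nat.card (K.map rho) = 251596800 := by
    rw [← Nat.card_congr (Subgroup.equivMapOfInjective K rho rho_inj).toEquiv, card_K]
  have hf : Finite (K.map rho) := Nat.finite_of_card_ne_zero (by rw [hc]; norm_num)
  exact (Subgroup.eq_of_le_of_card_ge N0_le_K (by rw [hc, (G24.abs_simple Y relS).2])).symm

theorem K_iso : Nonempty (K ≃* Kd G24.Yp 13 0) := by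
  obtain ⟨e⟩ := G24.abs_iso Y relS
  exact ⟨((Subgroup.equivMapOfInjective K rho rho_inj).trans (MulEquiv.subgroupCongr K_map)).trans e.symm⟩

end Cfsg.Agent.Lib.Helper88.SuzP
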