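import Cfsg.Agent.Lib.Helper88.TCPerm

/-!
A variant of the simplicity criterion: the full power of the prime `p` which divides the order divides the degree.
-/

set_option autoImplicit false
open scoped Pointwise

namespace Cfsg.Agent.Lib.Helper88.TC

/-- **A criterion for simplicity**: a faithful primitive action on a set whose cardinality is divisible by `p ^ a`
with `p ^ (a + 1)` not dividing the order, and generators which are products of two elements of order `p`. -/
theorem simple_of_prim_pow {G X : Type*} [Group G] [Finite G] [Nontrivial G] [MulAction G X] [Finite X]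
    [FaithfulSMul G X] [MulAction.IsPreprimitive G X] {p a : ℕ} [Fact p.Prime] (hpX : p ^ a ∣ Nat.card X)
    (hp2 : ¬ p ^ (a + 1) ∣ Nat.card G) (S : Set G) (hS : Subgroup.closure S = ⊤)
    (h : ∀ s ∈ S, ∃ z : G, z ^ p = 1 ∧ (s * z) ^ p = 1) : IsSimpleGroup G := by
  refine ⟨fun M hM => ?_⟩
  by_cases hbot : M = ⊥
  · exact Or.inl hbot
  right
  obtain ⟨m, hm, hm1⟩ : ∃ m ∈ M, m ≠ 1 := by
    obtain ⟨a, ha⟩ := Subgroup.ne_bot_iff_exists_ne_one.1 hbot
    exact ⟨a.1, a.2, fun e => ha (Subtype.ext e)⟩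
  have hfix : MulAction.fixedPoints M X ≠ Set.univ := by
    intro e
    apply hm1
    apply FaithfulSMul.eq_of_smul_eq_smul (α := X)
    intro x
    have hx : x ∈ MulAction.fixedPoints M X := by rw [e]; exact Set.mem_univ x
    rw [one_smul]
    exact hx ⟨m, hm⟩
  have htr : MulAction.IsPretransitive M X := MulAction.IsQuasiPreprimitive.isPretransitive_of_normal hfix
  have hne : Nonempty X := by
    by_contra hX
    rw [not_nonempty_iff] at hX
    apply hfix
    ext x
    exact (hX.false x).elim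
  obtain ⟨x⟩ := hne
  have hdvd : p ^ a ∣ Nat.card M := by
    have h1 : (MulAction.stabilizer M x).index = Nat.card X := by
      rw [MulAction.index_stabilizer, MulAction.orbit_eq_univ, Set.ncard_univ]
    exact (hpX.trans (h1 ▸ (MulAction.stabilizer M x).index_dvd_card))
  have hp : p.Prime := Fact.out
  have hidx : ¬ p ∣ M.index := by
    intro hd
    apply hp2
    rw [← M.card_mul_index, pow_succ]
    exact Nat.mul_dvd_mul hdvd hd
  have key : ∀ b : G, b ^ p = 1 → b ∈ M := by
    intro b hb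
    have h1 : ((b : G ⧸ M)) ^ p = 1 := by
      rw [← QuotientGroup.mk_pow, hb]; rfl
    have h2 : ((b : G ⧸ M)) ^ M.index = 1 := by
      rw [Subgroup.index_eq_card]; exact pow_card_eq_one'
    have h3 : orderOf (b : G ⧸ M) ∣ Nat.gcd p M.index :=
      Nat.dvd_gcd (orderOf_dvd_of_pow_eq_one h1) (orderOf_dvd_of_pow_eq_one h2)
    rw [(Nat.Prime.coprime_iff_not_dvd hp).2 hidx, Nat.dvd_one, orderOf_eq_one_iff] at h3
    exact (QuotientGroup.eq_one_iff b).1 h3
  rw [eq_top_iff, ← hS, Subgroup.closure_le]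
  intro s hs
  obtain ⟨z, hz1, hz2⟩ := h s hs
  have := M.mul_mem (key _ hz2) (M.inv_mem (key _ hz1))
  simpa using this

variable {N : ℕ} {nets : List (List (ℕ × ℕ))}

/-- **Simplicity of a permutation group.** -/
theorem simple_perm_pow (h : netsOK N nets = true) {Bs : List ℕ} (hs : sepOK N Bs = true) {ng d1 : ℕ} {b : Fin N}
    (hfix : fixOK nets ng d1 b = true) {is : List ℕ}
    (htr : Nat.beq (orb nets (lets ng 0) is b) (fullN N) = true) {pd : PD}
    (hp : primOK nets N ng d1 b pd = true) {p a : ℕ} [Fact p.Prime] (hpN : p ^ a ∣ N)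
    (hp2 : ¬ p ^ (a + 1) ∣ Nat.card (Kd (gens N nets) ng 0)) (hnt : 1 < Nat.card (Kd (gens N nets) ng 0))
    {Zs : List (List ℕ)} (hz : simpOK nets Bs ng p Zs = true) :
    IsSimpleGroup (Kd (gens N nets) ng 0) := by
  have i1 : MulAction.IsPreprimitive (Kd (gens N nets) ng 0) (Fin N) := prim_perm h hfix htr hp
  have i2 : Nontrivial (Kd (gens N nets) ng 0) := Finite.one_lt_card_iff_nontrivial.1 hnt
  have i3 : FaithfulSMul (Kd (gens N nets) ng 0) (Fin N) := ⟨fun {g g'} e => Subtype.ext (Equiv.ext e)⟩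
  have hpX : p ^ a ∣ Nat.card (Fin N) := by rw [Nat.card_fin]; exact hpN
  refine simple_of_prim_pow (X := Fin N) hpX hp2 _
    (Subgroup.closure_closure_coe_preimage (k := {g | ∃ k, 0 ≤ k ∧ k < ng ∧ g = (gens N nets).getD k 1})) ?_
  rintro ⟨s, hsH⟩ ⟨k, _, hk, rfl⟩
  have h1 := alN_spec hz k hk
  simp only [Bool.and_eq_true] at h1
  obtain ⟨⟨h2, h3⟩, h4⟩ := h1
  refine ⟨⟨ev (gens N nets) (nth [] Zs k), letOK_spec _ h4⟩, ?_, ?_⟩
  · apply Subtype.ext
    have := relOK_spec h hs h2
    rw [ev_rep] at this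
    exact this
  · apply Subtype.ext
    have := relOK_spec h hs h3
    rw [ev_rep, ev_append, ev, ev, one_mul, lt_even] at this
    exact this

end Cfsg.Agent.Lib.Helper88.TC
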